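import Mathlib
import Cfsg.Prelude.Def_KGroupFacts
import Cfsg.Agent.Lib.Helper35.Stem

/-!
# S2040, piece NF: the kernel of a stem extension has order not divisible by 4
(under a splitting hypothesis for exponent-2 central extensions with an involution lift)
-/

set_option autoImplicit false

namespace Cfsg.Agent.Lib.Helper58.J2MultNF

open Subgroup
open scoped commutatorElement

universe u

section Abstract

variable {A : Type*} [Group A]

/-- The squaring endomorphism of a commutative group. -/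
def sqHom (hc : ∀ a b : A, a * b = b * a) : A →* A where
  toFun a := a * a
  map_one' := mul_one 1
  map_mul' a b := by
    have mlc : ∀ a b c : A, a * (b * c) = b * (a * c) := fun a b c => by
      rw [← mul_assoc, hc a b, mul_assoc]
    simp only [hc, mlc]

/-- Squares together with the powers of one more element. -/
def sqWith (hc : ∀ a b : A, a * b = b * a) (k : A) : Subgroup A where
  carrier := {a | ∃ x : A, ∃ i : ℤ, a = k ^ i * (x * x)}
  one_mem' := ⟨1, 0, by simp⟩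
  mul_mem' := by
    rintro _ _ ⟨x, i, rfl⟩ ⟨y, j, rfl⟩
    refine ⟨x * y, i + j, ?_⟩
    have mlc : ∀ a b c : A, a * (b * c) = b * (a * c) := fun a b c => by
      rw [← mul_assoc, hc a b, mul_assoc]
    rw [zpow_add]
    simp only [mul_assoc, hc, mlc]
  inv_mem' := by
    rintro _ ⟨x, i, rfl⟩
    refine ⟨x⁻¹, -i, ?_⟩
    rw [zpow_neg, mul_inv_rev, mul_inv_rev]
    exact hc _ _

theorem comm_aux [Finite A] (hc : ∀ a b : A, a * b = b * a) (k0 : A)
    (h4 : 4 ∣ Nat.card A)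
    (hno : ∀ N : Subgroup A, (∀ a : A, a * a ∈ N) → k0 ∈ N → ∀ a : A, a ∈ N) :
    ∃ Ksq : Subgroup A, (∀ a : A, a * a ∈ Ksq) ∧ (∃ a : A, a ∉ Ksq) ∧
      (∀ e : A, e * e = 1 → e ∈ Ksq) ∧ (∀ a b : A, a ∉ Ksq → b ∉ Ksq → a * b ∈ Ksq) := by
  classical
  have mlc : ∀ a b c : A, a * (b * c) = b * (a * c) := fun a b c => by
    rw [← mul_assoc, hc a b, mul_assoc]
  let sq : A →* A := sqHom hc
  have hsq : ∀ a, sq a = a * a := fun a => rfl
  have hsplit : ∀ a : A, (∃ x : A, a = x * x) ∨ (∃ x : A, a = k0 * (x * x)) := by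
    intro a
    obtain ⟨x, i, rfl⟩ := hno (sqWith hc k0) (fun a => ⟨a, 0, by simp⟩) ⟨1, 1, by simp⟩ a
    rcases Int.even_or_odd' i with ⟨j, rfl | rfl⟩
    · left
      refine ⟨k0 ^ j * x, ?_⟩
      rw [two_mul, zpow_add]
      simp only [mul_assoc, hc, mlc]
    · right
      refine ⟨k0 ^ j * x, ?_⟩
      rw [zpow_add, zpow_one, two_mul, zpow_add]
      simp only [mul_assoc, hc, mlc]
  refine ⟨sq.range, fun a => ⟨a, rfl⟩, ?_, ?_, ?_⟩
  · -- the squaring map is not surjective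
    have h2 : 2 ∣ Nat.card A := (by norm_num : 2 ∣ 4).trans h4
    obtain ⟨g, hg⟩ := exists_prime_orderOf_dvd_card' 2 h2
    have hg2 : g * g = 1 := by rw [← pow_two, ← hg]; exact pow_orderOf_eq_one g
    have hg1 : g ≠ 1 := by rintro rfl; rw [orderOf_one] at hg; omega
    have hninj : ¬ Function.Injective sq := fun hi => hg1 (hi (by rw [hsq, hsq, hg2, mul_one]))
    have hnsurj : ¬ Function.Surjective sq := fun hs =>
      hninj (Finite.injective_iff_surjective.mpr hs)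
    by_contra hcon
    push Not at hcon
    exact hnsurj (fun a => hcon a)
  · -- the 2-torsion consists of squares
    have hcard1 : Nat.card sq.ker * Nat.card sq.range = Nat.card A := by
      rw [← Subgroup.index_ker]; exact Subgroup.card_mul_index _
    have hcard2 : Nat.card A ≤ 2 * Nat.card sq.range := by
      let f : Bool × sq.range → A := fun t => (if t.1 then k0 else 1) * (t.2 : A)
      have hf : Function.Surjective f := by
        intro a
        rcases hsplit a with ⟨x, rfl⟩ | ⟨x, rfl⟩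
        · exact ⟨(false, ⟨x * x, x, rfl⟩), by simp [f]⟩
        · exact ⟨(true, ⟨x * x, x, rfl⟩), by simp [f]⟩
      have := Nat.card_le_card_of_surjective f hf
      rwa [Nat.card_prod, Nat.card_eq_fintype_card (α := Bool), Fintype.card_bool] at this
    have hker2 : Nat.card sq.ker ≤ 2 := by
      have hpos : 0 < Nat.card sq.range := Nat.card_pos
      by_contra hcon
      push Not at hcon
      have : 3 * Nat.card sq.range ≤ Nat.card A := by
        rw [← hcard1]; exact Nat.mul_le_mul_right _ hcon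
      omega
    obtain ⟨H, hH⟩ := Sylow.exists_subgroup_card_pow_prime 2 (show 2 ^ 2 ∣ Nat.card A from h4)
    have hex : ∃ h ∈ H, h * h ≠ 1 := by
      by_contra hcon
      push Not at hcon
      have hle : H ≤ sq.ker := fun h hh => by rw [MonoidHom.mem_ker, hsq]; exact hcon h hh
      have := Subgroup.card_le_of_le hle
      omega
    obtain ⟨h, hh, hh1⟩ := hex
    have hh4 : (h * h) * (h * h) = 1 := by
      have h1 : (⟨h, hh⟩ : H) ^ Nat.card H = 1 := pow_card_eq_one'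
      rw [hH] at h1
      have h2 : h ^ 4 = 1 := by simpa using congrArg Subtype.val h1
      rw [← pow_two, ← pow_two, ← pow_mul]
      exact h2
    have hz : Subgroup.zpowers (h * h) = sq.ker := by
      apply Subgroup.eq_of_le_of_card_ge
      · rw [Subgroup.zpowers_le, MonoidHom.mem_ker, hsq]; exact hh4
      · rw [Nat.card_zpowers, orderOf_eq_prime (by rw [pow_two]; exact hh4) hh1]; exact hker2
    intro e he
    have he' : e ∈ Subgroup.zpowers (h * h) := by rw [hz, MonoidHom.mem_ker, hsq]; exact he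
    obtain ⟨n, rfl⟩ := Subgroup.mem_zpowers_iff.mp he'
    exact ⟨h ^ n, by rw [hsq]; exact ((Commute.refl h).mul_zpow n).symm⟩
  · intro a b ha hb
    rcases hsplit a with ⟨x, rfl⟩ | ⟨x, rfl⟩
    · exact absurd ⟨x, rfl⟩ ha
    rcases hsplit b with ⟨y, rfl⟩ | ⟨y, rfl⟩
    · exact absurd ⟨y, rfl⟩ hb
    refine ⟨k0 * x * y, ?_⟩
    rw [hsq]
    simp only [hc, mlc]

end Abstract

/-- Claim (0): a subgroup `N` of the kernel containing all squares of the kernel and the square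
of some lift of `b` is the whole kernel. -/
theorem no_lift {G : Type u} [Group G] [Finite G] (P : Subgroup G) (hP : (P.index).Coprime 2)
    (b : G)
    (hA : ∀ (Γ : Type u) [Group Γ] [Finite Γ] (τ : Γ →* G), Function.Surjective τ →
      τ.ker ≤ Subgroup.center Γ → (∀ k ∈ τ.ker, k * k = 1) → (∃ B : Γ, τ B = b ∧ B * B = 1) →
      ⁅P.comap τ, P.comap τ⁆ ⊓ τ.ker = ⊥)
    (Γ : Type u) [Group Γ] [Finite Γ] (σ : Γ →* G) (hσ : Cfsg.IsStemExtension σ)
    (N : Subgroup Γ) (hNK : N ≤ σ.ker) (hsq : ∀ k ∈ σ.ker, k * k ∈ N)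
    (B : Γ) (hB : σ B = b) (hBN : B * B ∈ N) : σ.ker ≤ N := by
  obtain ⟨hsurj, hcen, hcomm⟩ := hσ
  have hcomm' : ∀ k ∈ σ.ker, ∀ g : Γ, g * k = k * g := fun k hk g =>
    Subgroup.mem_center_iff.mp (hcen hk) g
  have hnorm : N.Normal := by
    constructor
    intro x hx g
    rw [hcomm' x (hNK hx) g, mul_inv_cancel_right]
    exact hx
  let σ' : Γ ⧸ N →* G := QuotientGroup.lift N σ (fun x hx => MonoidHom.mem_ker.mp (hNK hx))
  have hσ' : ∀ g : Γ, σ' (QuotientGroup.mk g) = σ g := fun g => rfl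
  have hker' : ∀ q ∈ σ'.ker, ∃ k ∈ σ.ker, (QuotientGroup.mk k : Γ ⧸ N) = q := by
    intro q hq
    obtain ⟨k, rfl⟩ := QuotientGroup.mk_surjective q
    exact ⟨k, by rw [MonoidHom.mem_ker] at hq ⊢; rwa [hσ'] at hq, rfl⟩
  have hs' : Function.Surjective σ' := by
    intro g
    obtain ⟨x, rfl⟩ := hsurj g
    exact ⟨QuotientGroup.mk x, rfl⟩
  have hc' : σ'.ker ≤ center (Γ ⧸ N) := by
    intro q hq
    obtain ⟨k, hk, rfl⟩ := hker' q hq
    rw [Subgroup.mem_center_iff]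
    intro q'
    obtain ⟨g, rfl⟩ := QuotientGroup.mk_surjective q'
    rw [← QuotientGroup.mk_mul, ← QuotientGroup.mk_mul, hcomm' k hk g]
  have hcm' : σ'.ker ≤ commutator (Γ ⧸ N) := by
    intro q hq
    obtain ⟨k, hk, rfl⟩ := hker' q hq
    have h1 : k ∈ commutator Γ := hcomm hk
    have h2 : (QuotientGroup.mk' N) k ∈ (commutator Γ).map (QuotientGroup.mk' N) :=
      Subgroup.mem_map_of_mem _ h1
    rw [commutator_def, Subgroup.map_commutator] at h2
    exact Subgroup.commutator_mono le_top le_top h2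
  have hexp : ∀ q ∈ σ'.ker, q * q = 1 := by
    intro q hq
    obtain ⟨k, hk, rfl⟩ := hker' q hq
    rw [← QuotientGroup.mk_mul, QuotientGroup.eq_one_iff]
    exact hsq k hk
  have hlift : ∃ B' : Γ ⧸ N, σ' B' = b ∧ B' * B' = 1 :=
    ⟨QuotientGroup.mk B, hB, by rw [← QuotientGroup.mk_mul, QuotientGroup.eq_one_iff]; exact hBN⟩
  have hbot := hA (Γ ⧸ N) σ' hs' hc' hexp hlift
  intro k hk
  have h1 : (QuotientGroup.mk k : Γ ⧸ N) ∈ σ'.ker := by
    rw [MonoidHom.mem_ker, hσ']; exact MonoidHom.mem_ker.mp hk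
  have h2 : (QuotientGroup.mk k : Γ ⧸ N) ∈ ⁅(P.comap σ'), (P.comap σ')⁆ := by
    apply Cfsg.Agent.Lib.Helper35.Stem.mem_commutator_of_coprime _ (hc' h1) (hcm' h1)
    rw [Subgroup.index_comap_of_surjective P hs']
    have hord : orderOf (QuotientGroup.mk k : Γ ⧸ N) ∣ 2 :=
      orderOf_dvd_of_pow_eq_one (by rw [pow_two]; exact hexp _ h1)
    exact Nat.Coprime.coprime_dvd_right hord hP
  have h3 : (QuotientGroup.mk k : Γ ⧸ N) ∈ ⁅(P.comap σ'), (P.comap σ')⁆ ⊓ σ'.ker := ⟨h2, h1⟩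
  rw [hbot, Subgroup.mem_bot, QuotientGroup.eq_one_iff] at h3
  exact h3

/-- [NF] -/
theorem no_four {G : Type u} [Group G] [Finite G] (P : Subgroup G) (hP : (P.index).Coprime 2)
    (b u v : G) (hb : b * b = 1)
    (hu : ∃ c : G, c * b * c⁻¹ = u) (hv : ∃ c : G, c * b * c⁻¹ = v)
    (huv : ∃ c : G, c * b * c⁻¹ = u * v) (hcomm : u * v = v * u)
    (hA : ∀ (Γ : Type u) [Group Γ] [Finite Γ] (τ : Γ →* G), Function.Surjective τ →
      τ.ker ≤ Subgroup.center Γ → (∀ k ∈ τ.ker, k * k = 1) → (∃ B : Γ, τ B = b ∧ B * B = 1) →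
      ⁅P.comap τ, P.comap τ⁆ ⊓ τ.ker = ⊥)
    (Γ : Type u) [Group Γ] [Finite Γ] (σ : Γ →* G) (hσ : Cfsg.IsStemExtension σ) :
    ¬ 4 ∣ Nat.card σ.ker := by
  intro h4
  have hσ0 := hσ
  obtain ⟨hsurj, hcen, hcm⟩ := hσ
  have hKc : ∀ k ∈ σ.ker, ∀ g : Γ, g * k = k * g := fun k hk g =>
    Subgroup.mem_center_iff.mp (hcen hk) g
  have hcA : ∀ a b : σ.ker, a * b = b * a := fun a b => Subtype.ext (hKc b b.2 a)
  obtain ⟨B0, hB0⟩ := hsurj b
  have hk0 : B0 * B0 ∈ σ.ker := by rw [MonoidHom.mem_ker, map_mul, hB0, hb]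
  -- the consequence of claim (0) inside the kernel
  have hno : ∀ (B : Γ) (_ : σ B = b) (hBK : B * B ∈ σ.ker) (N : Subgroup σ.ker),
      (∀ a : σ.ker, a * a ∈ N) → (⟨B * B, hBK⟩ : σ.ker) ∈ N → ∀ a : σ.ker, a ∈ N := by
    intro B hB hBK N hN1 hN2 a
    have h1 := no_lift P hP b hA Γ σ hσ0 (N.map σ.ker.subtype) (Subgroup.map_subtype_le N)
      (fun k hk => ⟨⟨k, hk⟩ * ⟨k, hk⟩, hN1 _, rfl⟩) B hB ⟨⟨B * B, hBK⟩, hN2, rfl⟩ a.2
    obtain ⟨a', ha', h2⟩ := h1
    have h3 : a' = a := Subtype.ext h2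
    rw [← h3]
    exact ha'
  obtain ⟨Ksq, hK1, ⟨a0, ha0⟩, hK3, hK4⟩ := comm_aux hcA ⟨B0 * B0, hk0⟩ h4 (hno B0 hB0 hk0)
  -- no lift of `b` has its square in `Ksq`
  have hnl : ∀ (B : Γ) (_ : σ B = b) (hBK : B * B ∈ σ.ker), (⟨B * B, hBK⟩ : σ.ker) ∉ Ksq :=
    fun B hB hBK hmem => ha0 (hno B hB hBK Ksq hK1 hmem a0)
  have hnl' : ∀ (c : G) (U : Γ) (_ : σ U = c * b * c⁻¹) (hUK : U * U ∈ σ.ker),
      (⟨U * U, hUK⟩ : σ.ker) ∉ Ksq := by
    intro c U hU hUK
    obtain ⟨C, rfl⟩ := hsurj c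
    have h1 : (C⁻¹ * U * C) * (C⁻¹ * U * C) = U * U := by
      have h2 : (C⁻¹ * U * C) * (C⁻¹ * U * C) = C⁻¹ * (U * U) * C := by group
      rw [h2, mul_assoc, ← hKc (U * U) hUK C, inv_mul_cancel_left]
    have h3 : σ (C⁻¹ * U * C) = b := by
      rw [map_mul, map_mul, hU, map_inv]; group
    have h4' := hnl (C⁻¹ * U * C) h3 (by rw [h1]; exact hUK)
    have h5 : (⟨(C⁻¹ * U * C) * (C⁻¹ * U * C), by rw [h1]; exact hUK⟩ : σ.ker) =
        ⟨U * U, hUK⟩ := Subtype.ext h1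
    rwa [h5] at h4'
  obtain ⟨cu, hcu⟩ := hu
  obtain ⟨cv, hcv⟩ := hv
  obtain ⟨cw, hcw⟩ := huv
  obtain ⟨U, hU⟩ := hsurj u
  obtain ⟨V, hV⟩ := hsurj v
  have hconj2 : ∀ c : G, (c * b * c⁻¹) * (c * b * c⁻¹) = 1 := by
    intro c
    have h1 : (c * b * c⁻¹) * (c * b * c⁻¹) = c * (b * b) * c⁻¹ := by group
    rw [h1, hb, mul_one, mul_inv_cancel]
  have hu2 : u * u = 1 := by rw [← hcu]; exact hconj2 cu
  have hv2 : v * v = 1 := by rw [← hcv]; exact hconj2 cv
  have hUK : U * U ∈ σ.ker := by rw [MonoidHom.mem_ker, map_mul, hU, hu2]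
  have hVK : V * V ∈ σ.ker := by rw [MonoidHom.mem_ker, map_mul, hV, hv2]
  have hUVK : (U * V) * (U * V) ∈ σ.ker := by
    rw [MonoidHom.mem_ker, map_mul, map_mul, hU, hV, ← hcw]
    exact hconj2 cw
  have hUn := hnl' cu U (by rw [hU, hcu]) hUK
  have hVn := hnl' cv V (by rw [hV, hcv]) hVK
  have hUVn := hnl' cw (U * V) (by rw [map_mul, hU, hV, hcw]) hUVK
  -- the commutator
  have heK : U⁻¹ * V * U * V⁻¹ ∈ σ.ker := by
    rw [MonoidHom.mem_ker]
    simp only [map_mul, map_inv, hU, hV]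
    rw [mul_assoc u⁻¹ v u, ← hcomm, inv_mul_cancel_left, mul_inv_cancel]
  have hce := hKc (U⁻¹ * V * U * V⁻¹) heK
  have hee : (U⁻¹ * V * U * V⁻¹) * (U⁻¹ * V * U * V⁻¹) = 1 := by
    have hc1 := hKc (U * U) hUK V
    have h1 : V * U * V⁻¹ = U * (U⁻¹ * V * U * V⁻¹) := by group
    have h2 : (V * U * V⁻¹) * (V * U * V⁻¹) = U * U := by
      have h3 : (V * U * V⁻¹) * (V * U * V⁻¹) = V * (U * U) * V⁻¹ := by group
      rw [h3, hc1, mul_inv_cancel_right]
    rw [h1] at h2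
    have h3 : U * (U⁻¹ * V * U * V⁻¹) * (U * (U⁻¹ * V * U * V⁻¹)) =
        U * U * ((U⁻¹ * V * U * V⁻¹) * (U⁻¹ * V * U * V⁻¹)) := by
      rw [mul_assoc U (U⁻¹ * V * U * V⁻¹), ← mul_assoc (U⁻¹ * V * U * V⁻¹) U, ← hce U,
        mul_assoc U (U⁻¹ * V * U * V⁻¹), ← mul_assoc U U]
    rw [h3] at h2
    exact mul_left_cancel (h2.trans (mul_one _).symm)
  have hUVe : (U * V) * (U * V) = (U * U) * (V * V) * (U⁻¹ * V * U * V⁻¹) := by
    have h1 : (U * V) * (U * V) = (U * U) * (U⁻¹ * V * U * V⁻¹) * (V * V) := by group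
    rw [h1, mul_assoc, ← hce (V * V), ← mul_assoc]
  have hm1 := hK4 ⟨U * U, hUK⟩ ⟨V * V, hVK⟩ hUn hVn
  have hm2 := hK3 ⟨U⁻¹ * V * U * V⁻¹, heK⟩ (Subtype.ext hee)
  have hm3 := Ksq.mul_mem hm1 hm2
  apply hUVn
  have h6 : (⟨(U * V) * (U * V), hUVK⟩ : σ.ker) =
      ⟨U * U, hUK⟩ * ⟨V * V, hVK⟩ * ⟨U⁻¹ * V * U * V⁻¹, heK⟩ := Subtype.ext hUVe
  rw [h6]
  exact hm3

end Cfsg.Agent.Lib.Helper58.J2MultNF
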