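import Cfsg.Agent.Lib.Helper28.DxStmt

/-!
# S1615 / F7 : the swapping lemma.
-/

set_option autoImplicit false

namespace Cfsg.Agent.Lib.Helper58.DxF7

universe u

open Cfsg Cfsg.Agent.Lib.Helper21.W3Class Cfsg.Agent.Lib.Helper28 Cfsg.Agent.Lib.Helper28.DxStmt

theorem main : Cfsg.Agent.Lib.Helper28.DxStmt.F7.{u} := by
  intro G _ _ D K T hK p hp q hq d hd hdq w' hw' hdw'
  obtain ⟨hw'P, hw'p⟩ := hw'
  have hqD := hq.1
  have hdD := hd.1
  have hw'D := hw'P.1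
  have sp := T.sq p hp
  have sq := T.sq q hqD
  have sd := T.sq d hdD
  have sw' := T.sq w' hw'D
  have ip : p⁻¹ = p := inv_eq_of_mul_eq_one_right sp
  have iq : q⁻¹ = q := inv_eq_of_mul_eq_one_right sq
  have id' : d⁻¹ = d := inv_eq_of_mul_eq_one_right sd
  have iw' : w'⁻¹ = w' := inv_eq_of_mul_eq_one_right sw'
  have hpq : Commute p q := hq.2.2
  have hpd : Commute p d := hd.2.2
  have hqw' : Commute q w' := hw'P.2.2
  have hpPq : p ∈ Pt D q := ⟨hp, Ne.symm hq.2.1, hpq.symm⟩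
  have hw'nep : w' ≠ p := by
    intro h
    rw [h] at hdw'
    exact hdw' hpd.symm
  have hw'pnc : ¬ Commute w' p := hK.tw q hqD w' hw'P p hpPq hw'p hw'nep
  -- braid relations
  have bpw : p * w' * p = w' * p * w' := T.br p hp w' hw'D (fun h => hw'pnc h.symm)
  have bdw : d * w' * d = w' * d * w' := T.br d hdD w' hw'D (fun h => hdw' h)
  -- the element `z`
  obtain ⟨z, hz⟩ : ∃ z, z = d * w' * d⁻¹ := ⟨_, rfl⟩
  have hzD : z ∈ D := hz ▸ T.conj d w' hw'D
  have hz2 : z = w' * d * w'⁻¹ := by rw [hz, id', iw']; exact bdw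
  have sz := T.sq z hzD
  have hzp : ¬ Commute z p := by
    intro h
    have e : d * p * d⁻¹ = p := by rw [← hpd.eq, mul_inv_cancel_right]
    rw [hz, ← e] at h
    exact hw'pnc ((Commute.conj_iff d).mp h)
  have hzq : ¬ Commute z q := by
    intro h
    rw [hz2] at h
    have e : w' * q * w'⁻¹ = q := by rw [← hqw'.eq, mul_inv_cancel_right]
    rw [← e] at h
    exact hdq ((Commute.conj_iff w').mp h)
  have b12 : q * z * q = z * q * z := T.br q hqD z hzD (fun h => hzq h.symm)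
  have b23 : z * p * z = p * z * p := T.br z hzD p hp (fun h => hzp h)
  obtain ⟨g, hg⟩ : ∃ g, g = z * q * p * z := ⟨_, rfl⟩
  obtain ⟨hg1, hg2⟩ := FR3Words.s4_swap sq sz sp b12 b23 hpq.eq.symm
  rw [← hg] at hg1 hg2
  -- `z d z⁻¹ = w'`
  have hA : z * d * z⁻¹ = w' := by
    rw [hz]
    calc (d * w' * d⁻¹) * d * (d * w' * d⁻¹)⁻¹ = d * w' * d * w'⁻¹ * d⁻¹ := by group
      _ = w' * d * w' * w'⁻¹ * d⁻¹ := by rw [bdw]
      _ = w' := by group
  -- `r = p w' p⁻¹` commutes with `q` and with `z`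
  have hqr : Commute q (p * w' * p⁻¹) :=
    (hpq.symm.mul_right hqw').mul_right hpq.symm.inv_right
  have hr2 : p * w' * p⁻¹ = w' * p * w'⁻¹ := by rw [ip, iw']; exact bpw
  have hzr : Commute z (p * w' * p⁻¹) := by
    rw [hz2, hr2]
    exact (Commute.conj_iff w').mpr hpd.symm
  have hgd : g * d * g⁻¹ = p * w' * p⁻¹ := by
    calc g * d * g⁻¹ = z * (q * (p * (z * d * z⁻¹) * p⁻¹) * q⁻¹) * z⁻¹ := by rw [hg]; group
      _ = z * (q * (p * w' * p⁻¹) * q⁻¹) * z⁻¹ := by rw [hA]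
      _ = z * (p * w' * p⁻¹) * z⁻¹ := by rw [hqr.eq, mul_inv_cancel_right]
      _ = p * w' * p⁻¹ := by rw [hzr.eq, mul_inv_cancel_right]
  -- `r * p = p * w' ∈ K q`
  have hrp : p * w' * p⁻¹ * p ∈ K q := by
    have h := (K q).inv_mem hw'p
    rw [mul_inv_rev, ip, iw'] at h
    have e : p * w' * p⁻¹ * p = p * w' := by group
    rw [e]
    exact h
  have hconj : g * (d * q) * g⁻¹ ∈ K q := by
    have e : g * (d * q) * g⁻¹ = (g * d * g⁻¹) * (g * q * g⁻¹) := by group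
    rw [e, hgd, FR3Words.conj_of_mul hg1]
    exact hrp
  have hback := hK.conj g⁻¹ q hqD _ hconj
  have e1 : g⁻¹ * (g * (d * q) * g⁻¹) * g⁻¹⁻¹ = d * q := by group
  have e2 : g⁻¹ * q * g⁻¹⁻¹ = p := by
    calc g⁻¹ * q * g⁻¹⁻¹ = g⁻¹ * (q * g) := by group
      _ = g⁻¹ * (g * p) := by rw [hg2]
      _ = p := by group
  rw [e1, e2] at hback
  exact ⟨hd, hback⟩

end Cfsg.Agent.Lib.Helper58.DxF7
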