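import Cfsg.Agent.Lib.Helper28.DxStmt

/-!
# S1615 / MUPOW : the number of common partners of two non-commuting members is a fixed
power of 3.
-/

set_option autoImplicit false

namespace Cfsg.Agent.Lib.Helper58.DxMUPOW

universe u

open Cfsg Cfsg.Agent.Lib.Helper21.W3Class Cfsg.Agent.Lib.Helper28 Cfsg.Agent.Lib.Helper28.DxStmt

theorem main : Cfsg.Agent.Lib.Helper28.DxStmt.MuPowPiece.{u} := by
  intro hPow G _ _ D K T hK hAll
  -- core: for a non-commuting pair with `y ∈ Mu`, the size is a power of 3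
  have core : ∀ a ∈ D, ∀ b ∈ D, ¬ Commute a b → ∀ y ∈ Mu D a b,
      ∃ j : ℕ, (Mu D a b).ncard = 3 ^ j := by
    intro a ha b hb hab y hy
    have hMP : ∀ u ∈ Mu D a b, u ∈ Pt D a := by
      intro u hu
      refine ⟨hu.1, ?_, hu.2.1⟩
      intro h
      rw [h] at hu
      exact hab hu.2.2.symm
    have hsq : ∀ u ∈ Mu D a b, u * u = 1 := fun u hu => T.sq u hu.1
    have hinv : ∀ u ∈ Mu D a b, u⁻¹ = u := fun u hu => inv_eq_of_mul_eq_one_right (hsq u hu)
    have hcent : ∀ l ∈ Subgroup.closure {x | ∃ u ∈ Mu D a b, ∃ v ∈ Mu D a b, x = u * v},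
        Commute a l ∧ Commute b l := by
      intro l hl
      induction hl using Subgroup.closure_induction with
      | mem x hx =>
        obtain ⟨u, hu, v, hv, rfl⟩ := hx
        exact ⟨hu.2.1.mul_right hv.2.1, hu.2.2.mul_right hv.2.2⟩
      | one => exact ⟨Commute.one_right a, Commute.one_right b⟩
      | mul x z _ _ hx hz => exact ⟨hx.1.mul_right hz.1, hx.2.mul_right hz.2⟩
      | inv x _ hx => exact ⟨hx.1.inv_right, hx.2.inv_right⟩
    have hconjM : ∀ l : G, Commute a l → Commute b l → ∀ u ∈ Mu D a b,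
        l * u * l⁻¹ ∈ Mu D a b := by
      intro l hla hlb u hu
      exact ⟨T.conj l u hu.1, (hla.mul_right hu.2.1).mul_right hla.inv_right,
        (hlb.mul_right hu.2.2).mul_right hlb.inv_right⟩
    have hK0le : Subgroup.closure {x | ∃ u ∈ Mu D a b, ∃ v ∈ Mu D a b, x = u * v} ≤ K a := by
      rw [Subgroup.closure_le]
      rintro x ⟨u, hu, v, hv, rfl⟩
      exact hAll a ha u (hMP u hu) v (hMP v hv)
    have hodd : Odd (Nat.card
        (Subgroup.closure {x | ∃ u ∈ Mu D a b, ∃ v ∈ Mu D a b, x = u * v})) :=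
      Odd.of_dvd_nat (hK.odd a ha) (Subgroup.card_dvd_of_le hK0le)
    have hbr : ∀ u ∈ Mu D a b, u ≠ y → u * y * u = y * u * y := by
      intro u hu hne
      have hnc : ¬ Commute u y := hK.tw a ha u (hMP u hu) y (hMP y hy)
        (hAll a ha u (hMP u hu) y (hMP y hy)) hne
      exact T.br u hu.1 y hy.1 (fun h => hnc h)
    apply hPow _ y (Mu D a b) hodd (hsq y hy)
    · intro l hl
      induction hl using Subgroup.closure_induction with
      | mem x hx =>
        obtain ⟨u, hu, v, hv, rfl⟩ := hx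
        apply Subgroup.subset_closure
        exact ⟨y * u * y⁻¹, hconjM y hy.2.1 hy.2.2 u hu, y * v * y⁻¹,
          hconjM y hy.2.1 hy.2.2 v hv, by group⟩
      | one =>
        have e : y * 1 * y⁻¹ = 1 := by group
        rw [e]
        exact Subgroup.one_mem _
      | mul x z _ _ hx hz =>
        have e : y * (x * z) * y⁻¹ = (y * x * y⁻¹) * (y * z * y⁻¹) := by group
        rw [e]
        exact Subgroup.mul_mem _ hx hz
      | inv x _ hx =>
        have e : y * x⁻¹ * y⁻¹ = (y * x * y⁻¹)⁻¹ := by group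
        rw [e]
        exact Subgroup.inv_mem _ hx
    · intro u hu
      by_cases hne : u = y
      · exact ⟨1, Subgroup.one_mem _, by rw [hne]; group⟩
      · refine ⟨(y * u * y⁻¹) * y, Subgroup.subset_closure
          ⟨y * u * y⁻¹, hconjM y hy.2.1 hy.2.2 u hu, y, hy, rfl⟩, ?_⟩
        have e : (y * u * y⁻¹ * y) * y * (y * u * y⁻¹ * y)⁻¹ = y * u * y * u⁻¹ * y⁻¹ := by group
        rw [e, hinv u hu, hinv y hy, ← hbr u hu hne]
        calc u = u * (y * y) := by rw [hsq y hy, mul_one]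
          _ = u * y * (u * u) * y := by rw [hsq u hu, mul_one]; group
          _ = u * y * u * u * y := by group
    · intro l hl
      obtain ⟨h1, h2⟩ := hcent l hl
      exact hconjM l h1 h2 y hy
    · intro u hu
      by_cases hne : u = y
      · rw [hne, hsq y hy, one_pow]
      · have hb' := hbr u hu hne
        calc (u * y) ^ 3 = (u * y * u) * (y * u * y) := by
              rw [pow_succ, pow_two]; simp only [mul_assoc]
          _ = (y * u * y) * (y * u * y) := by rw [hb']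
          _ = y * u * (y * y) * u * y := by group
          _ = y * (u * u) * y := by rw [hsq y hy, mul_one]; group
          _ = 1 := by rw [hsq u hu, mul_one, hsq y hy]
  -- a non-commuting pair with a common partner
  obtain ⟨u0, hu0, -⟩ := T.w
  obtain ⟨y, hy, y', hy', hne, hyy'⟩ := hK.ne u0 hu0
  have hnc0 : ¬ Commute y y' := hK.tw u0 hu0 y hy y' hy' hyy' hne
  have hu0M : u0 ∈ Mu D y y' := ⟨hu0, hy.2.2.symm, hy'.2.2.symm⟩
  obtain ⟨i, hi⟩ := core y hy.1 y' hy'.1 hnc0 u0 hu0M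
  refine ⟨i, ?_⟩
  intro a ha b hb hab
  obtain ⟨g₁, hg₁⟩ := T.trans y hy.1 a ha
  have hb''D : g₁ * y' * g₁⁻¹ ∈ D := T.conj g₁ y' hy'.1
  have hnc1 : ¬ Commute a (g₁ * y' * g₁⁻¹) := by
    rw [← hg₁]
    intro h
    exact hnc0 ((Commute.conj_iff g₁).mp h)
  obtain ⟨-, -, -, h4⟩ := FR3.rank3 T ha
  obtain ⟨g₂, hg₂a, hg₂⟩ := h4 _ hb''D b hb hnc1 hab
  have hga : (g₂ * g₁) * y * (g₂ * g₁)⁻¹ = a := by
    have e : (g₂ * g₁) * y * (g₂ * g₁)⁻¹ = g₂ * (g₁ * y * g₁⁻¹) * g₂⁻¹ := by group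
    rw [e, hg₁, hg₂a.eq, mul_inv_cancel_right]
  have hgb : (g₂ * g₁) * y' * (g₂ * g₁)⁻¹ = b := by
    have e : (g₂ * g₁) * y' * (g₂ * g₁)⁻¹ = g₂ * (g₁ * y' * g₁⁻¹) * g₂⁻¹ := by group
    rw [e, hg₂]
  have hc : ∀ x z : G, Commute ((g₂ * g₁) * x * (g₂ * g₁)⁻¹) z ↔
      Commute x ((g₂ * g₁)⁻¹ * z * (g₂ * g₁)) := by
    intro x z
    have e : z = (g₂ * g₁) * ((g₂ * g₁)⁻¹ * z * (g₂ * g₁)) * (g₂ * g₁)⁻¹ := by group
    conv_lhs => rw [e]
    exact Commute.conj_iff (g₂ * g₁)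
  have himg : Mu D a b = (fun d => (g₂ * g₁) * d * (g₂ * g₁)⁻¹) '' Mu D y y' := by
    apply FR3.image_conj_eq
    intro d
    constructor
    · rintro ⟨hd, h1, h2⟩
      refine ⟨(conj_mem_iff T.conj _ _).mpr hd, ?_, ?_⟩
      · rw [← hga] at h1
        exact (hc y d).mp h1
      · rw [← hgb] at h2
        exact (hc y' d).mp h2
    · rintro ⟨hd, h1, h2⟩
      refine ⟨(conj_mem_iff T.conj _ _).mp hd, ?_, ?_⟩
      · rw [← hga]
        exact (hc y d).mpr h1
      · rw [← hgb]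
        exact (hc y' d).mpr h2
  rw [himg, FR3.ncard_conj, hi]

end Cfsg.Agent.Lib.Helper58.DxMUPOW
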