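import Cfsg.Agent.Lib.Helper28.DxStmt

/-!
# S1615 / TWINB : a partner of `p` outside a twin class commutes with all or none of its
members.
-/

set_option autoImplicit false

namespace Cfsg.Agent.Lib.Helper58.DxTWINB

universe u

open Cfsg Cfsg.Agent.Lib.Helper21.W3Class Cfsg.Agent.Lib.Helper28 Cfsg.Agent.Lib.Helper28.DxStmt

theorem main : Cfsg.Agent.Lib.Helper28.DxStmt.TwinB.{u} := by
  intro G _ _ D K T hK p hp q hq v hv hvW w hw w' hw' hvw
  by_contra hvw'
  obtain ⟨hwP, hwq⟩ := hw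
  obtain ⟨hw'P, hw'q⟩ := hw'
  have hvD := hv.1
  have hwD := hwP.1
  have hw'D := hw'P.1
  have hqD := hq.1
  have sv := T.sq v hvD
  have sw := T.sq w hwD
  have sw' := T.sq w' hw'D
  have sq := T.sq q hqD
  have iv : v⁻¹ = v := inv_eq_of_mul_eq_one_right sv
  have iw : w⁻¹ = w := inv_eq_of_mul_eq_one_right sw
  have iw' : w'⁻¹ = w' := inv_eq_of_mul_eq_one_right sw'
  have iq : q⁻¹ = q := inv_eq_of_mul_eq_one_right sq
  -- `w' * w` and `w * w'` lie in `K p`
  have h1 : w' * w ∈ K p := by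
    have h := (K p).mul_mem hw'q ((K p).inv_mem hwq)
    have e : w' * q * (w * q)⁻¹ = w' * w⁻¹ := by group
    rwa [e, iw] at h
  have h1' : w * w' ∈ K p := by
    have h := (K p).inv_mem h1
    rwa [mul_inv_rev, iw, iw'] at h
  have hne : w ≠ w' := by
    intro h
    rw [h] at hvw
    exact hvw' hvw
  have hww' : ¬ Commute w w' := hK.tw p hp w hwP w' hw'P h1' hne
  -- the two conjugates
  have hzD : v * w' * v⁻¹ ∈ D := T.conj v w' hw'D
  have hyD : w * w' * w⁻¹ ∈ D := T.conj w w' hw'D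
  have hzP : v * w' * v⁻¹ ∈ Pt D p := by
    refine ⟨hzD, ?_, (hv.2.2.mul_right hw'P.2.2).mul_right hv.2.2.inv_right⟩
    intro h
    apply hw'P.2.1
    have e : w' = v⁻¹ * (v * w' * v⁻¹) * v := by group
    rw [e, h, mul_assoc, hv.2.2.eq, inv_mul_cancel_left]
  have hyP : w * w' * w⁻¹ ∈ Pt D p := by
    refine ⟨hyD, ?_, (hwP.2.2.mul_right hw'P.2.2).mul_right hwP.2.2.inv_right⟩
    intro h
    apply hw'P.2.1
    have e : w' = w⁻¹ * (w * w' * w⁻¹) * w := by group
    rw [e, h, mul_assoc, hwP.2.2.eq, inv_mul_cancel_left]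
  have hzw : v * w' * v⁻¹ * w ∈ K p := by
    have h := hK.nrm p hp v (Subgroup.subset_closure hv) (w' * w) h1
    have e : v * w' * v⁻¹ * w = v * (w' * w) * v⁻¹ := by
      calc v * w' * v⁻¹ * w = v * w' * (v⁻¹ * w) := by group
        _ = v * w' * (w * v⁻¹) := by rw [hvw.inv_left.eq]
        _ = v * (w' * w) * v⁻¹ := by group
    rw [e]
    exact h
  have hzq : v * w' * v⁻¹ * q ∈ K p := by
    have h := (K p).mul_mem hzw hwq
    have e : v * w' * v⁻¹ * w * (w * q) = v * w' * v⁻¹ * q := by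
      calc v * w' * v⁻¹ * w * (w * q) = v * w' * v⁻¹ * (w * w) * q := by group
        _ = v * w' * v⁻¹ * q := by rw [sw, mul_one]
    rwa [e] at h
  have hyw : w * w' * w⁻¹ * w ∈ K p := by
    have e : w * w' * w⁻¹ * w = w * w' := by group
    rw [e]
    exact h1'
  have hyq : w * w' * w⁻¹ * q ∈ K p := by
    have h := (K p).mul_mem hyw hwq
    have e : w * w' * w⁻¹ * w * (w * q) = w * w' * w⁻¹ * q := by
      calc w * w' * w⁻¹ * w * (w * q) = w * w' * w⁻¹ * (w * w) * q := by group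
        _ = w * w' * w⁻¹ * q := by rw [sw, mul_one]
    rwa [e] at h
  -- braid forms
  have bz : v * w' * v⁻¹ = w' * v * w' := by
    rw [iv]
    exact T.br v hvD w' hw'D (fun h => hvw' h)
  have by' : w * w' * w⁻¹ = w' * w * w' := by
    rw [iw]
    exact T.br w hwD w' hw'D (fun h => hww' h)
  have hcomm : Commute (v * w' * v⁻¹) (w * w' * w⁻¹) := by
    rw [bz, by']
    show (w' * v * w') * (w' * w * w') = (w' * w * w') * (w' * v * w')
    calc (w' * v * w') * (w' * w * w') = w' * v * (w' * w') * w * w' := by group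
      _ = w' * (v * w) * w' := by rw [sw', mul_one]; group
      _ = w' * (w * v) * w' := by rw [hvw.eq]
      _ = w' * w * (w' * w') * v * w' := by rw [sw', mul_one]; group
      _ = (w' * w * w') * (w' * v * w') := by group
  have hzy : v * w' * v⁻¹ * (w * w' * w⁻¹) ∈ K p := by
    have h := (K p).mul_mem hzq ((K p).inv_mem hyq)
    have e : v * w' * v⁻¹ * q * (w * w' * w⁻¹ * q)⁻¹ = v * w' * v⁻¹ * (w * w' * w⁻¹)⁻¹ := by
      group
    have e2 : (w * w' * w⁻¹)⁻¹ = w * w' * w⁻¹ := inv_eq_of_mul_eq_one_right (T.sq _ hyD)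
    rwa [e, e2] at h
  have heq : v * w' * v⁻¹ = w * w' * w⁻¹ := by
    by_contra hne2
    exact hK.tw p hp _ hzP _ hyP hzy hne2 hcomm
  rw [bz, by'] at heq
  have hvw_eq : v = w := by
    have h2 : w'⁻¹ * (w' * v * w') * w'⁻¹ = w'⁻¹ * (w' * w * w') * w'⁻¹ := by rw [heq]
    have e1 : w'⁻¹ * (w' * v * w') * w'⁻¹ = v := by group
    have e2 : w'⁻¹ * (w' * w * w') * w'⁻¹ = w := by group
    rw [e1, e2] at h2
    exact h2
  apply hvW
  rw [hvw_eq]
  exact ⟨hwP, hwq⟩

end Cfsg.Agent.Lib.Helper58.DxTWINB
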