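import Mathlib
import Cfsg.Prelude.Def_Blocks
import Cfsg.Agent.Lib.Helper81.CliffCorr
import Cfsg.Agent.Lib.Helper15.CyclicExt

set_option autoImplicit false
set_option linter.style.haveILetI false
set_option linter.unusedSectionVars false

namespace Cfsg.Agent.Lib.Helper58.ExistsOver

open Cfsg
open Cfsg.Agent.Lib.Helper81.Irr Cfsg.Agent.Lib.Helper81.Basic Cfsg.Agent.Lib.Helper81.Expand
  Cfsg.Agent.Lib.Helper81.Mult Cfsg.Agent.Lib.Helper81.Cliff Cfsg.Agent.Lib.Helper81.CliffCorr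
open Cfsg.Agent.Lib.CT.FrobRec

universe u

/-- An invariant irreducible character of a normal subgroup with cyclic quotient extends
(the statement S0886, in library form). -/
theorem ext_cyclic {G : Type u} [Group G] [Finite G] (N : Subgroup G) [hN : N.Normal]
    (hcyc : IsCyclic (G ⧸ N)) (ϑ : N → ℂ) (hϑ : Cfsg.IsIrrCharacter N ϑ)
    (hinv : ∀ (g : G) (n : N), ϑ ⟨g * n * g⁻¹, hN.conj_mem (n : G) n.2 g⟩ = ϑ n) :
    ∃ χ : G → ℂ, Cfsg.IsIrrCharacter G χ ∧ ∀ n : N, χ n = ϑ n := by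
  obtain ⟨d, σ, hirr, rfl⟩ := hϑ
  have := hirr
  obtain ⟨ρ, hρ⟩ := Cfsg.Agent.Lib.Helper15.CyclicExt.exists_rep_extension N hcyc σ hinv
  refine ⟨ρ.character, ⟨d, ρ, ?_, rfl⟩, fun n => ?_⟩
  · rw [Cfsg.Agent.Lib.Helper81.Irr.irr_iff] at hirr ⊢
    obtain ⟨hV, h⟩ := hirr
    refine ⟨hV, fun U hU => h U (fun n v hv => ?_)⟩
    rw [← hρ n]
    exact hU n v hv
  · change LinearMap.trace ℂ _ (ρ (n : G)) = LinearMap.trace ℂ _ (σ n)
    rw [hρ n]

/-- (W2) of helper17's S4442 plan: if the inertia group `I` of `θ ∈ Irr(K)` has `I/K` cyclic,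
there are `|I : K|` distinct irreducible characters of `H` over `θ`, with the value formula on
`K`. -/
theorem exists_over {H : Type u} [Group H] [Finite H] (K : Subgroup H) [hK : K.Normal]
    (θ : IrrCharacter ↥K) (I : Subgroup H)
    (hI : ∀ h : H, h ∈ I ↔ ∀ k : ↥K,
      (θ : ↥K → ℂ) ⟨h * (k : H) * h⁻¹, hK.conj_mem k k.2 h⟩ = (θ : ↥K → ℂ) k)
    (hcyc : ∃ g ∈ I, ∀ h ∈ I, ∃ n : ℕ, ∃ k ∈ K, h = g ^ n * k) :
    ∃ χ : Fin (K.relIndex I) → IrrCharacter H, Function.Injective χ ∧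
      ∀ (j : Fin (K.relIndex I)) (k : ↥K),
        (χ j : H → ℂ) (k : H) * (Nat.card H : ℂ) * (θ : ↥K → ℂ) 1 =
          (χ j : H → ℂ) 1 *
            ∑ᶠ h : H, (θ : ↥K → ℂ) ⟨h * (k : H) * h⁻¹, hK.conj_mem k k.2 h⟩ := by
  classical
  letI : Fintype H := Fintype.ofFinite H
  letI : Fintype ↥K := Fintype.ofFinite _
  letI : Fintype ↥I := Fintype.ofFinite _
  haveI := finite_irr (G := H)
  letI : Fintype (IrrCharacter H) := Fintype.ofFinite _
  haveI := finite_irr (G := ↥K)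
  letI : Fintype (IrrCharacter ↥K) := Fintype.ofFinite _
  haveI := finite_irr (G := ↥I)
  letI : Fintype (IrrCharacter ↥I) := Fintype.ofFinite _
  -- `K ≤ I`
  have hKI : K ≤ I := by
    intro h hh
    rw [hI]
    intro k
    exact irr_conj θ k ⟨h, hh⟩
  -- the stabilizer condition in `conjI` form
  have hI' : ∀ g : H, g ∈ I ↔ conjI K g θ = θ := by
    intro g
    rw [← inv_mem_iff (x := g), hI]
    constructor
    · intro h
      apply Subtype.ext
      funext k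
      rw [conjI_apply]
      exact h k
    · intro h k
      have := congrFun (congrArg Subtype.val h) k
      rw [conjI_apply] at this
      exact this
  -- the quotient `I / K`
  let KI : Subgroup ↥I := K.subgroupOf I
  have hKIn : KI.Normal := Subgroup.normal_subgroupOf
  have hcycQ : IsCyclic (↥I ⧸ KI) := by
    obtain ⟨g, hg, hgen⟩ := hcyc
    refine ⟨⟨(QuotientGroup.mk (⟨g, hg⟩ : ↥I) : ↥I ⧸ KI), fun q => ?_⟩⟩
    obtain ⟨x, rfl⟩ := QuotientGroup.mk_surjective q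
    obtain ⟨n, k, hk, hx⟩ := hgen x.1 x.2
    refine ⟨(n : ℤ), ?_⟩
    show (QuotientGroup.mk (⟨g, hg⟩ : ↥I) : ↥I ⧸ KI) ^ (n : ℤ) = QuotientGroup.mk x
    rw [zpow_natCast, ← QuotientGroup.mk_pow, QuotientGroup.eq]
    show ((⟨g, hg⟩ : ↥I) ^ n)⁻¹ * x ∈ K.subgroupOf I
    rw [Subgroup.mem_subgroupOf]
    have : ((((⟨g, hg⟩ : ↥I) ^ n)⁻¹ * x : ↥I) : H) = k := by
      simp [hx]
    rw [this]
    exact hk
  -- `θ` as a character of `KI`
  let eK : ↥KI ≃* ↥K := Subgroup.subgroupOfEquivOfLe hKI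
  let ϑ : ↥KI → ℂ := fun x => θ.1 (eK x)
  have hϑ : IsIrrCharacter ↥KI ϑ := isIrrCharacter_comp θ.2 eK.toMonoidHom eK.surjective
  have hinv : ∀ (g : ↥I) (n : ↥KI),
      ϑ ⟨g * n * g⁻¹, hKIn.conj_mem (n : ↥I) n.2 g⟩ = ϑ n := by
    intro g n
    exact (hI g.1).mp g.2 (eK n)
  obtain ⟨χ0, hχ0, hχ0res⟩ := ext_cyclic KI hcycQ ϑ hϑ hinv
  have hχ0K : ∀ k : ↥K, χ0 (Subgroup.inclusion hKI k) = θ.1 k := by
    intro k
    have hmem : (Subgroup.inclusion hKI k) ∈ KI := by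
      show (Subgroup.inclusion hKI k) ∈ K.subgroupOf I
      rw [Subgroup.mem_subgroupOf]
      exact k.2
    have := hχ0res ⟨Subgroup.inclusion hKI k, hmem⟩
    rw [this]
    rfl
  -- the linear characters of `I / K`
  letI : CommGroup (↥I ⧸ KI) := hcycQ.commGroup
  haveI : NeZero (Monoid.exponent (↥I ⧸ KI)) := ⟨Monoid.exponent_ne_zero_of_finite⟩
  have hcard : Nat.card ((↥I ⧸ KI) →* ℂˣ) = K.relIndex I :=
    CommGroup.card_monoidHom_of_hasEnoughRootsOfUnity (↥I ⧸ KI) ℂ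
  -- the extensions `ξ f`
  let lam : ((↥I ⧸ KI) →* ℂˣ) → (↥I →* ℂˣ) := fun f => f.comp (QuotientGroup.mk' KI)
  have hlamK : ∀ f (k : ↥K), lam f (Subgroup.inclusion hKI k) = 1 := by
    intro f k
    have hmem : (Subgroup.inclusion hKI k) ∈ KI := by
      show (Subgroup.inclusion hKI k) ∈ K.subgroupOf I
      rw [Subgroup.mem_subgroupOf]
      exact k.2
    show f (QuotientGroup.mk' KI (Subgroup.inclusion hKI k)) = 1
    have h0 : QuotientGroup.mk' KI (Subgroup.inclusion hKI k) = 1 :=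
      (QuotientGroup.eq_one_iff _).mpr hmem
    rw [h0, map_one]
  have hξirr : ∀ f, IsIrrCharacter ↥I ((fun i => ((lam f i : ℂˣ) : ℂ)) * χ0) := fun f =>
    Cfsg.Agent.Lib.CT.LinChar.isIrrCharacter_linear_mul
      (Cfsg.Agent.Lib.CT.LinChar.isCharacter_of_hom (lam f)) (by simp) hχ0
  let ξ : ((↥I ⧸ KI) →* ℂˣ) → IrrCharacter ↥I := fun f =>
    ⟨(fun i => ((lam f i : ℂˣ) : ℂ)) * χ0, hξirr f⟩
  have hξapp : ∀ f i, (ξ f).1 i = ((lam f i : ℂˣ) : ℂ) * χ0 i := fun f i => rfl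
  have hξres : ∀ f, resTo hKI (ξ f).1 = θ.1 := by
    intro f
    funext k
    rw [resTo_apply, hξapp, hlamK, hχ0K]
    simp
  have hξinj : Function.Injective ξ := by
    intro f f' hff
    have h1 : ∀ x : ↥I, ((lam f x : ℂˣ) : ℂ) * χ0 x = ((lam f' x : ℂˣ) : ℂ) * χ0 x := by
      intro x
      rw [← hξapp, ← hξapp, hff]
    letI : Fintype ↥KI := Fintype.ofFinite _
    haveI := finite_irr (G := ↥KI)
    letI : Fintype (IrrCharacter ↥KI) := Fintype.ofFinite _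
    let β : ↥I →* ℂˣ := lam (f⁻¹ * f')
    have hβapp : ∀ x : ↥I, ((β x : ℂˣ) : ℂ) = ((lam f x : ℂˣ) : ℂ)⁻¹ * ((lam f' x : ℂˣ) : ℂ) := by
      intro x
      show (((f⁻¹ * f') (QuotientGroup.mk' KI x) : ℂˣ) : ℂ) = _
      rw [MonoidHom.mul_apply, MonoidHom.inv_apply, Units.val_mul, Units.val_inv_eq_inv_val]
      rfl
    have hgal := gallagher_lin (H := ↥I) KI (⟨χ0, hχ0⟩ : IrrCharacter ↥I)
      (⟨ϑ, hϑ⟩ : IrrCharacter ↥KI) (by funext n; exact hχ0res n)
      (fun x => ((β x : ℂˣ) : ℂ)) (Cfsg.Agent.Lib.CT.LinChar.isCharacter_of_hom β) (by simp)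
      (by
        intro m hm
        show (((f⁻¹ * f') (QuotientGroup.mk' KI m) : ℂˣ) : ℂ) = 1
        have h0 : QuotientGroup.mk' KI m = 1 := (QuotientGroup.eq_one_iff _).mpr hm
        rw [h0, map_one, Units.val_one])
      (by
        intro x
        show ((β x : ℂˣ) : ℂ) * χ0 x = χ0 x
        rw [hβapp, mul_assoc, ← h1 x, ← mul_assoc, inv_mul_cancel₀ (Units.ne_zero _), one_mul])
    apply MonoidHom.ext
    intro q
    obtain ⟨x, rfl⟩ := QuotientGroup.mk_surjective q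
    have h2 := hgal x
    rw [hβapp] at h2
    have h3 : ((lam f' x : ℂˣ) : ℂ) = ((lam f x : ℂˣ) : ℂ) := by
      have hne : ((lam f x : ℂˣ) : ℂ) ≠ 0 := Units.ne_zero _
      field_simp at h2
      exact h2
    exact (Units.ext h3).symm
  -- induce
  choose X hX using fun f => induced_isIrr K θ I hI' hKI (ξ f) (hξres f)
  have hXinj : Function.Injective X := by
    intro f f' hff
    apply hξinj
    apply induced_inj K θ I hI' hKI (ξ f) (ξ f') (hξres f) (hξres f')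
    rw [(hX f).1, (hX f').1, hff]
  let e : Fin (K.relIndex I) ≃ ((↥I ⧸ KI) →* ℂˣ) := (Finite.equivFinOfCardEq hcard).symm
  refine ⟨fun j => X (e j), hXinj.comp e.injective, fun j k => ?_⟩
  show (X (e j)).1 (k : H) * (Nat.card H : ℂ) * θ.1 1 = (X (e j)).1 1 * _
  rw [← (hX (e j)).1, indFun_apply, indFun_one, finsum_eq_sum_of_fintype]
  have hsum : ∑ x : H, extendByZero I (ξ (e j)).1 (x⁻¹ * (k : H) * x)
      = ∑ h : H, θ.1 ⟨h * (k : H) * h⁻¹, hK.conj_mem k k.2 h⟩ := by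
    refine Fintype.sum_equiv (Equiv.inv H) _ _ fun x => ?_
    have hmemK : x⁻¹ * (k : H) * x ∈ K := by
      have := hK.conj_mem k k.2 x⁻¹
      rwa [inv_inv] at this
    rw [extendByZero_apply_of_mem I _ (hKI hmemK)]
    have h1 : (ξ (e j)).1 ⟨x⁻¹ * (k : H) * x, hKI hmemK⟩
        = resTo hKI (ξ (e j)).1 ⟨x⁻¹ * (k : H) * x, hmemK⟩ := rfl
    rw [h1, hξres]
    exact congrArg θ.1 (Subtype.ext (by simp))
  have hone : (ξ (e j)).1 1 = θ.1 1 := by
    have := congrFun (hξres (e j)) 1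
    rw [resTo_apply, map_one] at this
    exact this
  rw [hsum, hone]
  have hcardH : (Nat.card H : ℂ) = (Nat.card ↥I : ℂ) * (I.index : ℂ) := by
    rw [← Nat.cast_mul, Subgroup.card_mul_index]
  have hI0 : (Nat.card ↥I : ℂ) ≠ 0 := by
    exact_mod_cast (Nat.card_pos (α := ↥I)).ne'
  rw [hcardH]
  field_simp

end Cfsg.Agent.Lib.Helper58.ExistsOver
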