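import Mathlib
import Cfsg.Agent.Lib.Helper24.Coprime

/-!
# Gorenstein 5.3.10: a `p'`-automorphism of a `p`-group (`p` odd) fixing all elements of order
dividing `p` is trivial (piece Q1 of S3798)
-/

set_option autoImplicit false

namespace Cfsg.Agent.Lib.Helper58.Gor5310

/-- The statement for an automorphism realized as conjugation in an overgroup. -/
theorem aut_trivial_of_conj {G P : Type*} [Group G] [Finite G] [Group P] {p : ℕ} [Fact p.Prime]
    (hp : p ≠ 2) (hP : IsPGroup p P) (f : P →* G) (hf : Function.Injective f) (φ : MulAut P)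
    (a : G) (ho : (orderOf a).Coprime p) (hconj : ∀ y : P, a * f y * a⁻¹ = f (φ y))
    (h : ∀ x : P, x ^ p = 1 → φ x = x) : φ = 1 := by
  have hQ : IsPGroup p f.range :=
    hP.of_surjective f.rangeRestrict (MonoidHom.rangeRestrict_surjective _)
  have haQ : a ∈ Subgroup.normalizer (f.range : Set G) := by
    rw [Subgroup.mem_normalizer_iff]
    intro x
    constructor
    · rintro ⟨y, rfl⟩
      exact ⟨φ y, (hconj y).symm⟩
    · intro hx
      obtain ⟨y, hy⟩ := hx
      refine ⟨φ.symm y, ?_⟩
      have h1 := hconj (φ.symm y)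
      rw [MulEquiv.apply_symm_apply, hy] at h1
      calc f (φ.symm y) = a⁻¹ * (a * f (φ.symm y) * a⁻¹) * a := by group
        _ = a⁻¹ * (a * x * a⁻¹) * a := by rw [h1]
        _ = x := by group
  have hC : ∀ x ∈ f.range, x ^ p = 1 → x * a = a * x := by
    rintro x ⟨y, rfl⟩ hxp
    have hyp : y ^ p = 1 := by
      apply hf
      rw [map_pow, map_one]
      exact hxp
    have h1 := hconj y
    rw [h y hyp] at h1
    calc f y * a = (a * f y * a⁻¹) * a := by rw [h1]
      _ = a * f y := by group
  have hall := Cfsg.Agent.Lib.Helper24.Coprime.centralizes_of_centralizes_omega p hp a ho f.range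
    hQ haQ hC
  ext y
  apply hf
  rw [← hconj y, MulAut.one_apply]
  have h1 := hall (f y) ⟨y, rfl⟩
  calc a * f y * a⁻¹ = (f y * a) * a⁻¹ := by rw [h1]
    _ = f y := by group

/-- [Q1] Gorenstein 5.3.10. -/
theorem aut_trivial_of_fix_order_p {P : Type*} [Group P] [Finite P] {p : ℕ} [Fact p.Prime]
    (hp : p ≠ 2) (hP : IsPGroup p P) (φ : MulAut P) (hφ : (orderOf φ).Coprime p)
    (h : ∀ x : P, x ^ p = 1 → φ x = x) : φ = 1 := by
  have hfin : Finite (P ⋊[MonoidHom.id (MulAut P)] MulAut P) :=
    Finite.of_equiv _ (SemidirectProduct.equivProd (φ := MonoidHom.id (MulAut P))).symm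
  refine aut_trivial_of_conj hp hP
    (SemidirectProduct.inl : P →* P ⋊[MonoidHom.id (MulAut P)] MulAut P)
    SemidirectProduct.inl_injective φ (SemidirectProduct.inr φ) ?_ ?_ h
  · rw [orderOf_injective (SemidirectProduct.inr : MulAut P →* P ⋊[MonoidHom.id (MulAut P)] MulAut P)
      SemidirectProduct.inr_injective φ]
    exact hφ
  · intro y
    rw [← map_inv]
    exact (SemidirectProduct.inl_aut (φ := MonoidHom.id (MulAut P)) φ y).symm

end Cfsg.Agent.Lib.Helper58.Gor5310
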