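import Mathlib
import Cfsg.Agent.Lib.Helper27.JzStmt
import Cfsg.Agent.Lib.Helper90.Extraspecial

/-!
# S5403 piece XS5: the centraliser of an element of order five in an extraspecial group of order
`2 ^ 9`, when of order `2 ^ 5`, is extraspecial.
-/

set_option autoImplicit false
set_option linter.style.haveILetI false

namespace Cfsg.Agent.Lib.Helper58.JzXS5

open Cfsg Cfsg.Agent.Lib.Helper27.JzStmt
open Cfsg.Agent.Lib.Helper90 Cfsg.Agent.Lib.Helper90.Extraspecial
open scoped commutatorElement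

/-- `Helper90.Extraspecial.isExtraspecial_of_le` with finiteness of `Q` only. -/
theorem isExtraspecial_of_le' {G : Type*} [Group G] {Q : Subgroup G} [Finite ↥Q]
    (hE : Cfsg.IsExtraspecial 2 ↥Q)
    (X : Subgroup G) (hXQ : X ≤ Q)
    (hcen : ∀ x ∈ X, (∀ y ∈ X, x * y = y * x) → x ∈ (Subgroup.center ↥Q).map Q.subtype)
    (hnab : ∃ x ∈ X, ∃ y ∈ X, x * y ≠ y * x) : Cfsg.IsExtraspecial 2 ↥X := by
  haveI : Finite ↥X := Finite.of_injective _ (Subgroup.inclusion_injective hXQ)
  obtain ⟨z, hzZ, hz1, hzQ, hzz, hzc, hZ⟩ := exists_center_gen hE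
  obtain ⟨x, hx, y, hy, hxy⟩ := hnab
  have hc1 : x * y * x⁻¹ * y⁻¹ ≠ 1 := by
    intro h
    apply hxy
    have := congrArg (fun t => t * y * x) h
    simpa [mul_assoc] using this
  have hcz : x * y * x⁻¹ * y⁻¹ = z := by
    rcases hZ _ (comm_mem_center_map hE (hXQ hx) (hXQ hy)) with h | h
    · exact absurd h hc1
    · exact h
  have hzX : z ∈ X := by
    rw [← hcz]
    exact X.mul_mem (X.mul_mem (X.mul_mem hx hy) (X.inv_mem hx)) (X.inv_mem hy)
  have hX2 : IsPGroup 2 ↥X := IsPGroup.to_le hE.1.1 hXQ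
  -- characterization of the centre of X
  have hcenter : ∀ u : X, u ∈ Subgroup.center ↥X ↔ (u : G) ∈ (Subgroup.center ↥Q).map Q.subtype := by
    intro u
    constructor
    · intro hu
      apply hcen u u.2
      intro v hv
      have := Subgroup.mem_center_iff.mp hu ⟨v, hv⟩
      have := congrArg Subtype.val this
      simpa using this.symm
    · intro hu
      rw [Subgroup.mem_center_iff]
      intro v
      ext
      have := PGroup.center_map_comm Q hu (hXQ v.2)
      simpa using this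
  have hcomm_mem : ∀ u v : X, u * v * u⁻¹ * v⁻¹ ∈ Subgroup.center ↥X := by
    intro u v
    rw [hcenter]
    have := comm_mem_center_map hE (hXQ u.2) (hXQ v.2)
    simpa using this
  have hsq_mem : ∀ u : X, u ^ 2 ∈ Subgroup.center ↥X := by
    intro u
    rw [hcenter]
    have := sq_mem_center_map hE (hXQ u.2)
    simpa using this
  have hzelt : ⁅(⟨x, hx⟩ : X), (⟨y, hy⟩ : X)⁆ = (⟨z, hzX⟩ : X) := by
    ext
    simp [commutatorElement_def, hcz]
  have hcenter_cases : ∀ u : X, u ∈ Subgroup.center ↥X → u = 1 ∨ u = ⟨z, hzX⟩ := by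
    intro u hu
    rcases hZ _ ((hcenter u).mp hu) with h | h
    · left; ext; simpa using h
    · right; ext; simpa using h
  refine ⟨⟨hX2, ?_, ?_⟩, ?_⟩
  · -- frattini = centre
    apply le_antisymm
    · exact Frattini2.frattini_le_of_sq_comm _ hsq_mem hcomm_mem
    · intro u hu
      rcases hcenter_cases u hu with h | h
      · rw [h]; exact Subgroup.one_mem _
      · rw [h, ← hzelt, commutatorElement_def]
        exact Frattini2.commutator_mem_frattini hX2 _ _
  · -- commutator = centre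
    apply le_antisymm
    · rw [commutator_def, Subgroup.commutator_le]
      intro u _ v _
      rw [commutatorElement_def]
      exact hcomm_mem u v
    · intro u hu
      rcases hcenter_cases u hu with h | h
      · rw [h]; exact Subgroup.one_mem _
      · rw [h, ← hzelt, commutator_def]
        exact Subgroup.commutator_mem_commutator (Subgroup.mem_top _) (Subgroup.mem_top _)
  · -- the centre has two elements
    have hzc' : (⟨z, hzX⟩ : X) ∈ Subgroup.center ↥X := (hcenter _).mpr hzZ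
    rw [Nat.card_eq_two_iff]
    refine ⟨1, ⟨⟨z, hzX⟩, hzc'⟩, ?_, ?_⟩
    · intro h
      apply hz1
      have := congrArg (fun t : Subgroup.center ↥X => ((t : X) : G)) h
      simpa using this.symm
    · ext u
      simp only [Set.mem_insert_iff, Set.mem_singleton_iff, Set.mem_univ, iff_true]
      rcases hcenter_cases u u.2 with h | h
      · left; ext; simpa using congrArg Subtype.val h
      · right; ext; simpa using congrArg Subtype.val h

/-- the counting core: an element of `C_K(a)` central in `C_K(a)` is central in `K` -/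
theorem central_of_central {A : Type} [Group A] (K : Subgroup A) (a : A)
    (hE : IsExtraspecial 2 ↥K) (hcard : Nat.card ↥K = 2 ^ 9) (ha5 : a ^ 5 = 1)
    (hnorm : ∀ k ∈ K, a * k * a⁻¹ ∈ K) (x : A) (hxK : x ∈ K) (hxa : a * x = x * a)
    (hx : ∀ y ∈ K, a * y = y * a → x * y = y * x) : ∀ k ∈ K, x * k = k * x := by
  classical
  haveI : Finite ↥K := Nat.finite_of_card_ne_zero (by rw [hcard]; norm_num)
  obtain ⟨z, hzZ, hz1, hzK, hzz, hzc, hZ⟩ := exists_center_gen hE
  have hdich : ∀ k ∈ K, x * k = k * x ∨ x * k = z * k * x := by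
    intro k hk
    rcases hZ _ (comm_mem_center_map hE hxK hk) with h | h
    · left
      have := congrArg (fun t => t * k * x) h
      simpa [mul_assoc] using this
    · right
      have := congrArg (fun t => t * k * x) h
      simpa [mul_assoc] using this
  have hexcl : ∀ k : A, x * k = k * x → x * k = z * k * x → False := by
    intro k h1 h2
    apply hz1
    rw [h1, mul_assoc] at h2
    have h3 : (1 : A) * (k * x) = z * (k * x) := by rw [one_mul]; exact h2
    exact (mul_right_cancel h3).symm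
  by_contra hcon
  push Not at hcon
  obtain ⟨k₀, hk₀K, hk₀⟩ := hcon
  have hk₀i : k₀⁻¹ ∈ K := K.inv_mem hk₀K
  have E0 : x * k₀⁻¹ = z * k₀⁻¹ * x := by
    rcases hdich k₀⁻¹ hk₀i with h | h
    · exfalso
      apply hk₀
      have := congrArg (fun t => k₀ * t * k₀) h
      simp only [mul_assoc, inv_mul_cancel, mul_one, mul_inv_cancel_left] at this
      exact this.symm
    · exact h
  -- the bijection between non-commuting and commuting elements
  have hbij : ∀ k : ↥K, ¬ (x * (k : A) = (k : A) * x) ↔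
      x * (((Equiv.mulLeft (⟨k₀, hk₀K⟩⁻¹ : ↥K)) k : ↥K) : A)
        = (((Equiv.mulLeft (⟨k₀, hk₀K⟩⁻¹ : ↥K)) k : ↥K) : A) * x := by
    intro k
    have e : (((Equiv.mulLeft (⟨k₀, hk₀K⟩⁻¹ : ↥K)) k : ↥K) : A) = k₀⁻¹ * (k : A) := rfl
    rw [e]
    constructor
    · intro hk
      have hk' : x * (k : A) = z * (k : A) * x := by
        rcases hdich k k.2 with h | h
        · exact absurd h hk
        · exact h
      calc x * (k₀⁻¹ * (k : A)) = (x * k₀⁻¹) * (k : A) := by rw [mul_assoc]
        _ = z * k₀⁻¹ * (x * (k : A)) := by rw [E0]; simp only [mul_assoc]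
        _ = z * (k₀⁻¹ * z) * ((k : A) * x) := by rw [hk']; simp only [mul_assoc]
        _ = z * (z * k₀⁻¹) * ((k : A) * x) := by rw [hzc k₀⁻¹ hk₀i]
        _ = (z * z) * (k₀⁻¹ * ((k : A) * x)) := by simp only [mul_assoc]
        _ = k₀⁻¹ * (k : A) * x := by rw [hzz, one_mul, mul_assoc]
    · intro hc hck
      have h1 : x * k₀⁻¹ * (k : A) = k₀⁻¹ * x * (k : A) := by
        rw [mul_assoc, hc, mul_assoc, mul_assoc, hck]
      exact hexcl k₀⁻¹ (mul_right_cancel h1) E0
  have hxa' : a⁻¹ * x = x * a⁻¹ := (Commute.inv_left (show Commute a x from hxa)).eq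
  obtain ⟨e⟩ : Nonempty ({k : ↥K // ¬ (x * (k : A) = (k : A) * x)} ≃
      {k : ↥K // x * (k : A) = (k : A) * x}) :=
    ⟨Equiv.subtypeEquiv (Equiv.mulLeft (⟨k₀, hk₀K⟩⁻¹ : ↥K)) hbij⟩
  have hsum : Nat.card {k : ↥K // x * (k : A) = (k : A) * x} +
      Nat.card {k : ↥K // ¬ (x * (k : A) = (k : A) * x)} = 2 ^ 9 := by
    rw [← Nat.card_sum, ← hcard]
    exact Nat.card_congr (Equiv.sumCompl (fun k : ↥K => x * (k : A) = (k : A) * x))
  have hD : Nat.card {k : ↥K // ¬ (x * (k : A) = (k : A) * x)} = 256 := by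
    have h1 := Nat.card_congr e
    omega
  -- conjugation by `a` on the non-commuting elements
  have hkeep : ∀ k : ↥K, ¬ (x * (k : A) = (k : A) * x) →
      ¬ (x * (a * (k : A) * a⁻¹) = (a * (k : A) * a⁻¹) * x) := by
    intro k hk h
    apply hk
    have h' : a * (x * (k : A)) * a⁻¹ = a * ((k : A) * x) * a⁻¹ := by
      calc a * (x * (k : A)) * a⁻¹ = (a * x) * (k : A) * a⁻¹ := by simp only [mul_assoc]
        _ = x * (a * (k : A) * a⁻¹) := by rw [hxa]; simp only [mul_assoc]
        _ = (a * (k : A) * a⁻¹) * x := h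
        _ = a * (k : A) * (a⁻¹ * x) := by simp only [mul_assoc]
        _ = a * ((k : A) * x) * a⁻¹ := by rw [hxa']; simp only [mul_assoc]
    exact mul_left_cancel (mul_right_cancel h')
  obtain ⟨gD, hgD⟩ : ∃ gD : {k : ↥K // ¬ (x * (k : A) = (k : A) * x)} →
      {k : ↥K // ¬ (x * (k : A) = (k : A) * x)},
      ∀ k, (((gD k).1 : ↥K) : A) = a * ((k.1 : ↥K) : A) * a⁻¹ :=
    ⟨fun k => ⟨⟨a * ((k.1 : ↥K) : A) * a⁻¹, hnorm _ k.1.2⟩, hkeep k.1 k.2⟩, fun k => rfl⟩
  have hinj : Function.Injective gD := by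
    intro k k' h
    have h1 := congrArg (fun t : {k : ↥K // ¬ (x * (k : A) = (k : A) * x)} => ((t.1 : ↥K) : A)) h
    simp only [hgD] at h1
    exact Subtype.ext (Subtype.ext (mul_left_cancel (mul_right_cancel h1)))
  have hiter : ∀ (n : ℕ) (k : {k : ↥K // ¬ (x * (k : A) = (k : A) * x)}),
      ((((gD^[n]) k).1 : ↥K) : A) = a ^ n * ((k.1 : ↥K) : A) * (a ^ n)⁻¹ := by
    intro n
    induction n with
    | zero => intro k; simp
    | succ n ih =>
      intro k
      rw [Function.iterate_succ_apply', hgD, ih k, pow_succ', mul_inv_rev]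
      simp only [mul_assoc]
  obtain ⟨σ, hσ⟩ : ∃ σ : Equiv.Perm {k : ↥K // ¬ (x * (k : A) = (k : A) * x)}, ⇑σ = gD :=
    ⟨Equiv.ofBijective gD (Finite.injective_iff_bijective.1 hinj), rfl⟩
  have hσ5 : σ ^ 5 ^ 1 = 1 := by
    rw [pow_one]
    apply Equiv.Perm.ext
    intro k
    rw [← Equiv.Perm.iterate_eq_pow, hσ]
    apply Subtype.ext
    apply Subtype.ext
    rw [hiter 5 k, ha5]
    simp
  haveI : Fact (Nat.Prime 5) := ⟨by norm_num⟩
  haveI : Fintype {k : ↥K // ¬ (x * (k : A) = (k : A) * x)} := Fintype.ofFinite _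
  have hnd : ¬ 5 ∣ Fintype.card {k : ↥K // ¬ (x * (k : A) = (k : A) * x)} := by
    rw [← Nat.card_eq_fintype_card, hD]
    norm_num
  obtain ⟨k, hk⟩ := Equiv.Perm.exists_fixed_point_of_prime hnd hσ5
  rw [hσ] at hk
  have h1 := congrArg (fun t : {k : ↥K // ¬ (x * (k : A) = (k : A) * x)} => ((t.1 : ↥K) : A)) hk
  simp only [hgD] at h1
  have h2 : a * ((k.1 : ↥K) : A) = ((k.1 : ↥K) : A) * a := mul_inv_eq_iff_eq_mul.1 h1
  exact k.2 (hx _ k.1.2 h2)

theorem main : XS5 := by
  intro A _ K a hE hcard ha5 hnorm hcardX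
  classical
  haveI : Finite ↥K := Nat.finite_of_card_ne_zero (by rw [hcard]; norm_num)
  obtain ⟨z, hzZ, hz1, hzK, hzz, hzc, hZ⟩ := exists_center_gen hE
  have hmem : ∀ y : A, y ∈ K ⊓ Subgroup.centralizer ({a} : Set A) ↔ y ∈ K ∧ a * y = y * a := by
    intro y
    rw [Subgroup.mem_inf, Subgroup.mem_centralizer_iff]
    constructor
    · rintro ⟨h1, h2⟩
      exact ⟨h1, h2 a rfl⟩
    · rintro ⟨h1, h2⟩
      refine ⟨h1, fun h hh => ?_⟩
      rw [Set.mem_singleton_iff] at hh
      rw [hh]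
      exact h2
  have hcen : ∀ x ∈ K ⊓ Subgroup.centralizer ({a} : Set A),
      (∀ y ∈ K ⊓ Subgroup.centralizer ({a} : Set A), x * y = y * x) →
      x ∈ (Subgroup.center ↥K).map K.subtype := by
    intro x hxX hx
    obtain ⟨hxK, hxa⟩ := (hmem x).1 hxX
    have h1 := central_of_central K a hE hcard ha5 hnorm x hxK hxa
      (fun y hyK hya => hx y ((hmem y).2 ⟨hyK, hya⟩))
    refine ⟨⟨x, hxK⟩, ?_, rfl⟩
    rw [SetLike.mem_coe, Subgroup.mem_center_iff]
    intro g
    apply Subtype.ext
    exact (h1 g g.2).symm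
  apply isExtraspecial_of_le' hE _ inf_le_left hcen
  by_contra hab
  push Not at hab
  have hsub : ∀ x ∈ K ⊓ Subgroup.centralizer ({a} : Set A), x = 1 ∨ x = z :=
    fun x hx => hZ x (hcen x hx (fun y hy => hab x hx y hy))
  haveI : Finite ↥(K ⊓ Subgroup.centralizer ({a} : Set A)) :=
    Finite.of_injective _ (Subgroup.inclusion_injective
      (inf_le_left : K ⊓ Subgroup.centralizer ({a} : Set A) ≤ K))
  have hinj : Function.Injective
      (fun x : ↥(K ⊓ Subgroup.centralizer ({a} : Set A)) => decide ((x : A) = 1)) := by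
    intro x y hxy
    simp only [decide_eq_decide] at hxy
    apply Subtype.ext
    rcases hsub x x.2 with h1 | h1 <;> rcases hsub y y.2 with h2 | h2
    · rw [h1, h2]
    · exact absurd (h2.symm.trans (hxy.1 h1)) hz1
    · exact absurd (h1.symm.trans (hxy.2 h2)) hz1
    · rw [h1, h2]
  have hle := Nat.card_le_card_of_injective _ hinj
  rw [hcardX, Nat.card_eq_fintype_card, Fintype.card_bool] at hle
  norm_num at hle

end Cfsg.Agent.Lib.Helper58.JzXS5
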