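import Mathlib
import Cfsg.Agent.Lib.Helper3.M24BlkStmt
import Cfsg.Agent.Lib.Helper86.M24BlkP27
import Cfsg.Agent.Lib.Helper24.M24BlkEXP3

/-!
# S5006 / THREE: a 3-element of `M24` has order at most 3 and commutes with an involution.
-/

set_option autoImplicit false

namespace Cfsg.Agent.Lib.Helper58.M24THREE

open Cfsg Cfsg.Agent.Lib.Helper7.GolayBase Cfsg.Agent.Lib.Helper3.M24Blk

theorem main : Cfsg.Agent.Lib.Helper3.M24BlkStmt.ThreeStmt := by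
  intro g hg
  obtain ⟨k, hk⟩ := hg
  haveI : Fact (Nat.Prime 3) := ⟨by norm_num⟩
  obtain ⟨P, hP, hcard, hexp, hinv⟩ := Cfsg.Agent.Lib.Helper86.M24BlkP27.main
  have hx : ((g : Equiv.Perm GolayPt)) ^ 3 ^ k = 1 := by
    have := congrArg Subtype.val hk
    simpa using this
  obtain ⟨u, hu, hmem⟩ := Cfsg.Agent.Lib.Helper24.M24BlkEXP3.exists_conj_mem_of_pow M24 P hP 3
    9067520 (by rw [hcard, Cfsg.Agent.Lib.Helper7.M24Main.card_M24]) (by norm_num)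
    (g : Equiv.Perm GolayPt) g.2 k hx
  have h3 := hexp _ hmem
  obtain ⟨v, hv, hvo, hvc⟩ := hinv _ hmem
  have hg3 : (g : Equiv.Perm GolayPt) ^ 3 = 1 := by
    have e : u⁻¹ * (g : Equiv.Perm GolayPt) * u = u⁻¹ * (g : Equiv.Perm GolayPt) * u⁻¹⁻¹ := by
      rw [inv_inv]
    rw [e, conj_pow] at h3
    calc (g : Equiv.Perm GolayPt) ^ 3
        = u⁻¹⁻¹ * (u⁻¹ * (g : Equiv.Perm GolayPt) ^ 3 * u⁻¹⁻¹) * u⁻¹ := by group
      _ = 1 := by rw [h3]; group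
  refine ⟨?_, ?_⟩
  · apply Subtype.ext
    simpa using hg3
  · have hw : u * v * u⁻¹ ∈ M24 := M24.mul_mem (M24.mul_mem hu hv) (M24.inv_mem hu)
    refine ⟨⟨u * v * u⁻¹, hw⟩, ?_, ?_⟩
    · rw [Subgroup.orderOf_mk]
      rw [← hvo]
      exact (MulAut.conj u).orderOf_eq v
    · apply Subtype.ext
      show u * v * u⁻¹ * (g : Equiv.Perm GolayPt) = (g : Equiv.Perm GolayPt) * (u * v * u⁻¹)
      calc u * v * u⁻¹ * (g : Equiv.Perm GolayPt)
          = u * (v * (u⁻¹ * (g : Equiv.Perm GolayPt) * u)) * u⁻¹ := by group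
        _ = u * ((u⁻¹ * (g : Equiv.Perm GolayPt) * u) * v) * u⁻¹ := by rw [hvc]
        _ = (g : Equiv.Perm GolayPt) * (u * v * u⁻¹) := by group

end Cfsg.Agent.Lib.Helper58.M24THREE
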