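import Mathlib

set_option autoImplicit false

namespace Cfsg.Agent.Lib.Helper58.MatStruct

universe v

section Corner

variable {F : Type*} {A : Type v} [Field F] [Ring A] [Algebra F A] {ε : A}
  (idem : IsIdempotentElem ε)

/-- scalar action on the corner ring -/
instance cornerSMul : SMul F idem.Corner :=
  ⟨fun r x => ⟨r • x.1, by
    obtain ⟨h1, h2⟩ := (Subsemigroup.mem_corner_iff idem).mp x.2
    exact (Subsemigroup.mem_corner_iff idem).mpr
      ⟨by rw [mul_smul_comm, h1], by rw [smul_mul_assoc, h2]⟩⟩⟩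

/-- the inclusion of the corner as an additive map -/
def cornerVal : idem.Corner →+ A where
  toFun x := x.1
  map_zero' := rfl
  map_add' _ _ := rfl

theorem cornerVal_injective : Function.Injective (cornerVal idem) := by
  intro x y h
  exact Subtype.ext h

instance cornerModule : Module F idem.Corner :=
  Function.Injective.module F (cornerVal idem) (cornerVal_injective idem) (fun _ _ => rfl)

instance cornerAlgebra : Algebra F idem.Corner :=
  Algebra.ofModule
    (fun r x y => Subtype.ext (by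
      show (r • x.1) * y.1 = r • (x.1 * y.1)
      rw [smul_mul_assoc]))
    (fun r x y => Subtype.ext (by
      show x.1 * (r • y.1) = r • (x.1 * y.1)
      rw [mul_smul_comm]))

/-- the inclusion of the corner as a linear map -/
def cornerValL : idem.Corner →ₗ[F] A where
  toFun x := x.1
  map_add' _ _ := rfl
  map_smul' _ _ := rfl

instance cornerFD [FiniteDimensional F A] : FiniteDimensional F idem.Corner :=
  FiniteDimensional.of_injective (cornerValL (F := F) idem) (fun _ _ h => Subtype.ext h)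

end Corner

theorem corner_comm
    {F : Type*} {A : Type v} [Field F] [IsAlgClosed F] [Ring A] [Algebra F A]
    [FiniteDimensional F A]
    (hK : ∀ (Λ : Type v) [Ring Λ] [Algebra F Λ] [FiniteDimensional F Λ] (lam : Λ →ₗ[F] F),
      (∀ x y, lam (x * y) = lam (y * x)) → (∀ x, x ≠ 0 → ∃ y, lam (x * y) ≠ 0) →
      ∀ (π : Λ →ₐ[F] F), (∃ N : ℕ, (RingHom.ker (π : Λ →+* F)) ^ N = ⊥) →
      ∀ (c : Fin 4 → Λ), (∀ w : Λ, (∀ x, w * x = x * w) → ∃ t : Fin 4 → F, w = ∑ i, t i • c i) →
      ∀ x y : Λ, x * y = y * x)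
    (lam : A →ₗ[F] F) (hsym : ∀ x y, lam (x * y) = lam (y * x))
    (hnd : ∀ x, x ≠ 0 → ∃ y, lam (x * y) ≠ 0)
    {n : ℕ} [NeZero n] (ψ : A →ₐ[F] Matrix (Fin n) (Fin n) F)
    (hnil : ∃ k : ℕ, (RingHom.ker (ψ : A →+* Matrix (Fin n) (Fin n) F)) ^ k = ⊥)
    {ε : A} (idem : IsIdempotentElem ε) (hε : ψ ε = Matrix.single 0 0 1)
    (c' : Fin 4 → A)
    (hcen' : ∀ d : A, ε * d = d → d * ε = d →
      (∀ x, ε * x = x → x * ε = x → d * x = x * d) →
      ∃ t : Fin 4 → F, d = ∑ i, t i • (ε * c' i * ε)) :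
    ∀ x y : A, ε * x = x → x * ε = x → ε * y = y → y * ε = y → x * y = y * x := by
  classical
  let lamC : idem.Corner →ₗ[F] F := lam ∘ₗ cornerValL idem
  have h1 : ∀ x y : idem.Corner, lamC (x * y) = lamC (y * x) := fun x y => hsym x.1 y.1
  have h2 : ∀ x : idem.Corner, x ≠ 0 → ∃ y, lamC (x * y) ≠ 0 := by
    intro x hx
    have hx1 : x.1 ≠ 0 := fun h => hx (Subtype.ext h)
    obtain ⟨y, hy⟩ := hnd x.1 hx1
    obtain ⟨e1, e2⟩ := (Subsemigroup.mem_corner_iff idem).mp x.2
    refine ⟨⟨ε * y * ε, y, rfl⟩, ?_⟩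
    show lam (x.1 * (ε * y * ε)) ≠ 0
    have : lam (x.1 * (ε * y * ε)) = lam (x.1 * y) := by
      rw [← mul_assoc, ← mul_assoc, e2, hsym, ← mul_assoc, e1]
    rwa [this]
  let πL : idem.Corner →ₗ[F] F :=
    { toFun := fun x => ψ x.1 0 0
      map_add' := fun x y => by
        show ψ (x.1 + y.1) 0 0 = _
        rw [map_add]; rfl
      map_smul' := fun r x => by
        show ψ (r • x.1) 0 0 = _
        rw [map_smul]; rfl }
  have hψc : ∀ x : idem.Corner, ψ x.1 = Matrix.single 0 0 (ψ x.1 0 0) := by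
    intro x
    obtain ⟨e1, e2⟩ := (Subsemigroup.mem_corner_iff idem).mp x.2
    have : ψ x.1 = Matrix.single 0 0 1 * ψ x.1 * Matrix.single 0 0 1 := by
      rw [← hε, ← map_mul, ← map_mul, e1, e2]
    rw [Matrix.single_mul_mul_single] at this
    simpa using this
  let π : idem.Corner →ₐ[F] F := AlgHom.ofLinearMap πL
    (by show ψ ε 0 0 = 1; rw [hε]; simp)
    (by
      intro x y
      show ψ (x.1 * y.1) 0 0 = ψ x.1 0 0 * ψ y.1 0 0
      rw [map_mul, hψc x, hψc y]; simp)
  have h3 : ∃ N : ℕ, (RingHom.ker (π : idem.Corner →+* F)) ^ N = ⊥ := by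
    obtain ⟨k, hk⟩ := hnil
    refine ⟨k, ?_⟩
    have key : ∀ N : ℕ, ∀ x ∈ (RingHom.ker (π : idem.Corner →+* F)) ^ N,
        x.1 ∈ (RingHom.ker (ψ : A →+* Matrix (Fin n) (Fin n) F)) ^ N := by
      intro N
      induction N with
      | zero =>
        intro x _
        rw [Submodule.pow_zero, Ideal.one_eq_top]
        trivial
      | succ N ih =>
        intro x hx
        rw [Submodule.pow_succ] at hx ⊢
        refine Submodule.mul_induction_on hx ?_ ?_
        · intro a ha b hb
          refine Submodule.mul_mem_mul (ih a ha) ?_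
          rw [RingHom.mem_ker] at hb ⊢
          have hb' : ψ b.1 0 0 = 0 := hb
          have := hψc b
          rw [hb'] at this
          simpa using this
        · intro a b ha hb
          exact add_mem ha hb
    rw [eq_bot_iff]
    intro x hx
    have := key k x hx
    rw [hk] at this
    exact Subtype.ext this
  let cc : Fin 4 → idem.Corner := fun i => ⟨ε * c' i * ε, c' i, rfl⟩
  have h4 : ∀ w : idem.Corner, (∀ x, w * x = x * w) →
      ∃ t : Fin 4 → F, w = ∑ i, t i • cc i := by
    intro w hw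
    obtain ⟨e1, e2⟩ := (Subsemigroup.mem_corner_iff idem).mp w.2
    obtain ⟨t, ht⟩ := hcen' w.1 e1 e2 (fun x hx1 hx2 => congrArg Subtype.val
      (hw ⟨x, (Subsemigroup.mem_corner_iff idem).mpr ⟨hx1, hx2⟩⟩))
    refine ⟨t, Subtype.ext ?_⟩
    rw [ht]
    exact (map_sum (cornerValL (F := F) idem) (fun i => t i • cc i) Finset.univ).symm
  have hcomm := hK idem.Corner lamC h1 h2 π h3 cc h4
  intro x y hx1 hx2 hy1 hy2
  exact congrArg Subtype.val
    (hcomm ⟨x, (Subsemigroup.mem_corner_iff idem).mpr ⟨hx1, hx2⟩⟩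
      ⟨y, (Subsemigroup.mem_corner_iff idem).mpr ⟨hy1, hy2⟩⟩)

theorem exists_matrix_units
    {F : Type*} {A : Type v} [Field F] [Ring A] [Algebra F A]
    {n : ℕ} [NeZero n] (ψ : A →ₐ[F] Matrix (Fin n) (Fin n) F) (hψ : Function.Surjective ψ)
    (hnil : ∀ x : A, ψ x = 0 → IsNilpotent x) :
    ∃ (ε : A) (u v : Fin n → A), IsIdempotentElem ε ∧ ψ ε = Matrix.single 0 0 1 ∧
      (∀ i, u i * ε = u i) ∧ (∀ i, ε * v i = v i) ∧
      (∀ i j, v i * u j = if i = j then ε else 0) ∧
      (∑ i, u i * v i = 1) := by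
  classical
  have he : CompleteOrthogonalIdempotents (fun i : Fin n => Matrix.single i i (1 : F)) :=
    { idem := fun i => by simp [IsIdempotentElem]
      ortho := fun i j hij => by
        show Matrix.single i i (1 : F) * Matrix.single j j (1 : F) = 0
        rw [Matrix.single_mul_single_of_ne (h := hij)]
      complete := Matrix.sum_single_one }
  obtain ⟨e, he1, he2⟩ := CompleteOrthogonalIdempotents.lift_of_isNilpotent_ker
    (ψ : A →+* Matrix (Fin n) (Fin n) F) (fun x hx => hnil x hx) he (fun i => hψ _)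
  have hψe : ∀ i, ψ (e i) = Matrix.single i i 1 := fun i => congrFun he2 i
  have hee : ∀ i, e i * e i = e i := fun i => he1.idem i
  have horth : ∀ i j, i ≠ j → e i * e j = 0 := fun i j h => he1.ortho h
  obtain ⟨ε, hεdef⟩ : ∃ ε, ε = e 0 := ⟨_, rfl⟩
  have idem : ε * ε = ε := by rw [hεdef]; exact hee 0
  have hψε : ψ ε = Matrix.single 0 0 1 := by rw [hεdef]; exact hψe 0
  choose x hx using fun i : Fin n => hψ (Matrix.single i 0 1)
  choose y hy using fun i : Fin n => hψ (Matrix.single 0 i 1)
  have hg : ∀ i, ψ (ε * y i * e i * (e i * x i * ε) + (1 - ε)) = 1 := by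
    intro i
    simp [hψe, hx, hy, hψε]
  have hgu : ∀ i, IsUnit (ε * y i * e i * (e i * x i * ε) + (1 - ε)) := by
    intro i
    have h1 : IsNilpotent (ε * y i * e i * (e i * x i * ε) + (1 - ε) - 1) :=
      hnil _ (by rw [map_sub, hg, map_one, sub_self])
    have := h1.isUnit_add_one
    simpa using this
  choose G hG using hgu
  have hεg : ∀ i, ε * (G i : A) = ε * y i * e i * (e i * x i * ε) := by
    intro i
    rw [hG, mul_add, mul_sub, mul_one, idem, sub_self, add_zero]
    simp only [← mul_assoc, idem]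
  have hgε : ∀ i, (G i : A) * ε = ε * y i * e i * (e i * x i * ε) := by
    intro i
    rw [hG, add_mul, sub_mul, one_mul, idem, sub_self, add_zero]
    simp only [mul_assoc, idem]
  have hcomm : ∀ i, Commute ε (G i : A) := fun i => (hεg i).trans (hgε i).symm
  have hcomm' : ∀ i, ε * ((G i)⁻¹ : Aˣ) = ((G i)⁻¹ : Aˣ) * ε := fun i =>
    ((hcomm i).units_inv_right).eq
  have hψG : ∀ i, ψ ((G i)⁻¹ : Aˣ) = 1 := by
    intro i
    have h1 : ψ (G i : A) = 1 := by rw [hG]; exact hg i
    have h2 : ψ (((G i)⁻¹ : Aˣ) * (G i : A)) = 1 := by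
      rw [Units.inv_mul, map_one]
    rw [map_mul, h1, mul_one] at h2
    exact h2
  have h3 : ∀ i j, ε * y i * e i * (e j * x j * ε * ((G j)⁻¹ : Aˣ)) = if i = j then ε else 0 := by
    intro i j
    split_ifs with hij
    · subst hij
      rw [← mul_assoc, ← hεg i, mul_assoc, Units.mul_inv, mul_one]
    · have : ε * y i * e i * (e j * x j * ε * ((G j)⁻¹ : Aˣ))
          = ε * y i * (e i * e j) * x j * ε * ((G j)⁻¹ : Aˣ) := by
        simp only [mul_assoc]
      rw [this, horth i j hij]
      simp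
  refine ⟨ε, fun i => e i * x i * ε * ((G i)⁻¹ : Aˣ), fun i => ε * y i * e i, idem, hψε,
    ?_, ?_, h3, ?_⟩
  · intro i
    show e i * x i * ε * ((G i)⁻¹ : Aˣ) * ε = e i * x i * ε * ((G i)⁻¹ : Aˣ)
    rw [mul_assoc (e i * x i * ε), ← hcomm' i, ← mul_assoc, mul_assoc (e i * x i), idem]
  · intro i
    show ε * (ε * y i * e i) = ε * y i * e i
    simp only [← mul_assoc, idem]
  · rw [← he1.complete]
    refine Finset.sum_congr rfl fun i _ => ?_
    show e i * x i * ε * ((G i)⁻¹ : Aˣ) * (ε * y i * e i) = e i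
    set p := e i * x i * ε * ((G i)⁻¹ : Aˣ) * (ε * y i * e i) with hp
    have hpp : p * p = p := by
      have : p * p = e i * x i * ε * ((G i)⁻¹ : Aˣ) *
          ((ε * y i * e i) * (e i * x i * ε * ((G i)⁻¹ : Aˣ))) * (ε * y i * e i) := by
        rw [hp]; simp only [mul_assoc]
      rw [this, h3 i i, if_pos rfl, hp]
      simp only [mul_assoc]
      congr 4
      rw [← mul_assoc, idem]
    have hep : e i * p = p := by
      rw [hp]; simp only [← mul_assoc, hee]
    have hpe : p * e i = p := by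
      rw [hp]; simp only [mul_assoc, hee]
    have hψp : ψ p = Matrix.single i i 1 := by
      rw [hp]
      simp [hψe, hx, hy, hψε, hψG]
    have hq : IsIdempotentElem (e i - p) := by
      show (e i - p) * (e i - p) = e i - p
      rw [mul_sub, sub_mul, sub_mul, hee, hep, hpe, hpp]; abel
    have hq0 : e i - p = 0 :=
      hq.eq_zero_of_isNilpotent (hnil _ (by rw [map_sub, hψe, hψp, sub_self]))
    exact (sub_eq_zero.mp hq0).symm


/-- [P2] of helper75's S4648 plan: one simple module, symmetric, centre of dimension `≤ 4`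
implies that `A` is a matrix ring over its centre. -/
theorem matrix_structure_of {F : Type*} {A : Type v} [Field F] [IsAlgClosed F] [Ring A]
    [Algebra F A] [FiniteDimensional F A]
    (hK : ∀ (Λ : Type v) [Ring Λ] [Algebra F Λ] [FiniteDimensional F Λ] (lam : Λ →ₗ[F] F),
      (∀ x y, lam (x * y) = lam (y * x)) → (∀ x, x ≠ 0 → ∃ y, lam (x * y) ≠ 0) →
      ∀ (π : Λ →ₐ[F] F), (∃ N : ℕ, (RingHom.ker (π : Λ →+* F)) ^ N = ⊥) →
      ∀ (c : Fin 4 → Λ), (∀ w : Λ, (∀ x, w * x = x * w) → ∃ t : Fin 4 → F, w = ∑ i, t i • c i) →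
      ∀ x y : Λ, x * y = y * x)
    (lam : A →ₗ[F] F) (hsym : ∀ x y, lam (x * y) = lam (y * x))
    (hnd : ∀ x, x ≠ 0 → ∃ y, lam (x * y) ≠ 0)
    {n : ℕ} [NeZero n] (ψ : A →ₐ[F] Matrix (Fin n) (Fin n) F) (hψ : Function.Surjective ψ)
    (hnil : ∃ k : ℕ, (RingHom.ker (ψ : A →+* Matrix (Fin n) (Fin n) F)) ^ k = ⊥)
    (c : Fin 4 → A)
    (hcen : ∀ w : A, (∀ x, w * x = x * w) → ∃ t : Fin 4 → F, w = ∑ i, t i • c i) :
    (∃ a : Fin n × Fin n → A, ∀ x : A, ∃ w : Fin n × Fin n → A,
      (∀ i y, w i * y = y * w i) ∧ x = ∑ i, w i * a i) ∧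
    Module.finrank F (Subalgebra.center F A) * n ^ 2 ≤ Module.finrank F A := by
  classical
  have hnil' : ∀ x : A, ψ x = 0 → IsNilpotent x := by
    obtain ⟨k, hk⟩ := hnil
    intro x hx
    refine ⟨k, ?_⟩
    have : x ^ k ∈ (RingHom.ker (ψ : A →+* Matrix (Fin n) (Fin n) F)) ^ k :=
      Submodule.pow_mem_pow _ (by rw [RingHom.mem_ker]; exact hx) k
    rw [hk] at this
    exact this
  obtain ⟨ε, u, v, idem, hψε, huε, hεv, hvu, hsum⟩ := exists_matrix_units ψ hψ hnil'
  have hvu_same : ∀ i, v i * u i = ε := fun i => by rw [hvu, if_pos rfl]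
  have hvu_ne : ∀ i j, i ≠ j → v i * u j = 0 := fun i j h => by rw [hvu, if_neg h]
  have hdec : ∀ x : A, x = ∑ k, ∑ l, u k * (v k * x * u l) * v l := by
    intro x
    have : x = (∑ k, u k * v k) * x * (∑ l, u l * v l) := by rw [hsum, one_mul, mul_one]
    conv_lhs => rw [this]
    rw [Finset.sum_mul, Finset.sum_mul]
    refine Finset.sum_congr rfl fun k _ => ?_
    rw [Finset.mul_sum]
    refine Finset.sum_congr rfl fun l _ => ?_
    simp only [mul_assoc]
  have hcor1 : ∀ i j y, ε * (v i * y * u j) = v i * y * u j := by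
    intro i j y; rw [← mul_assoc, ← mul_assoc, hεv]
  have hcor2 : ∀ i j y, (v i * y * u j) * ε = v i * y * u j := by
    intro i j y; rw [mul_assoc, huε]
  have hZ : ∀ d : A, ε * d = d → d * ε = d →
      (∀ x, ε * x = x → x * ε = x → d * x = x * d) →
      ∀ y, (∑ i, u i * d * v i) * y = y * (∑ i, u i * d * v i) := by
    intro d hd1 hd2 hd y
    have hL : (∑ i, u i * d * v i) * y = ∑ i, ∑ j, u i * (d * (v i * y * u j)) * v j := by
      rw [Finset.sum_mul]
      refine Finset.sum_congr rfl fun i _ => ?_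
      have : u i * d * v i * y = u i * d * v i * y * (∑ j, u j * v j) := by rw [hsum, mul_one]
      rw [this, Finset.mul_sum]
      refine Finset.sum_congr rfl fun j _ => ?_
      simp only [mul_assoc]
    have hR : y * (∑ j, u j * d * v j) = ∑ i, ∑ j, u i * ((v i * y * u j) * d) * v j := by
      have : y * (∑ j, u j * d * v j) = (∑ i, u i * v i) * y * (∑ j, u j * d * v j) := by
        rw [hsum, one_mul]
      rw [this, Finset.sum_mul, Finset.sum_mul]
      refine Finset.sum_congr rfl fun i _ => ?_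
      rw [Finset.mul_sum]
      refine Finset.sum_congr rfl fun j _ => ?_
      simp only [mul_assoc]
    rw [hL, hR]
    refine Finset.sum_congr rfl fun i _ => Finset.sum_congr rfl fun j _ => ?_
    rw [hd _ (hcor1 i j y) (hcor2 i j y)]
  have hZm : ∀ d : A, ε * d = d → d * ε = d → ∀ k l,
      (∑ i, u i * d * v i) * (u k * v l) = u k * d * v l := by
    intro d hd1 hd2 k l
    rw [Finset.sum_mul, Finset.sum_eq_single k]
    · have : u k * d * v k * (u k * v l) = u k * d * (v k * u k) * v l := by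
        simp only [mul_assoc]
      rw [this, hvu_same, mul_assoc (u k), hd2]
    · intro i _ hik
      have : u i * d * v i * (u k * v l) = u i * d * (v i * u k) * v l := by
        simp only [mul_assoc]
      rw [this, hvu_ne i k hik]; simp
    · intro h; exact absurd (Finset.mem_univ k) h
  have hcen' : ∀ d : A, ε * d = d → d * ε = d →
      (∀ x, ε * x = x → x * ε = x → d * x = x * d) →
      ∃ t : Fin 4 → F, d = ∑ i, t i • (ε * c i * ε) := by
    intro d hd1 hd2 hd
    have hZc := hZ d hd1 hd2 hd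
    obtain ⟨t, ht⟩ := hcen _ hZc
    refine ⟨t, ?_⟩
    have e1 : (∑ i, u i * d * v i) * u 0 = u 0 * d := by
      calc (∑ i, u i * d * v i) * u 0 = (∑ i, u i * d * v i) * (u 0 * ε) := by rw [huε]
        _ = (∑ i, u i * d * v i) * (u 0 * v 0) * u 0 := by
            rw [← hvu_same 0]; simp only [mul_assoc]
        _ = u 0 * d * v 0 * u 0 := by rw [hZm d hd1 hd2 0 0]
        _ = u 0 * d := by rw [mul_assoc, hvu_same, mul_assoc, hd2]
    have h0 : ε * (∑ i, u i * d * v i) * ε = d := by
      calc ε * (∑ i, u i * d * v i) * ε = (∑ i, u i * d * v i) * ε * ε := by rw [hZc ε]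
        _ = (∑ i, u i * d * v i) * ε := by rw [mul_assoc, idem.eq]
        _ = (∑ i, u i * d * v i) * v 0 * u 0 := by rw [← hvu_same 0, mul_assoc]
        _ = v 0 * ((∑ i, u i * d * v i) * u 0) := by rw [hZc (v 0), mul_assoc]
        _ = d := by rw [e1, ← mul_assoc, hvu_same, hd1]
    rw [← h0, ht, Finset.mul_sum, Finset.sum_mul]
    refine Finset.sum_congr rfl fun i _ => ?_
    rw [mul_smul_comm, smul_mul_assoc]
  have hΛ := corner_comm hK lam hsym hnd ψ hnil idem hψε c hcen'
  refine ⟨⟨fun kl => u kl.1 * v kl.2, fun x => ?_⟩, ?_⟩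
  · refine ⟨fun kl => ∑ i, u i * (v kl.1 * x * u kl.2) * v i, fun kl y => ?_, ?_⟩
    · exact hZ _ (hcor1 _ _ _) (hcor2 _ _ _)
        (fun z hz1 hz2 => hΛ _ _ (hcor1 _ _ _) (hcor2 _ _ _) hz1 hz2) y
    · rw [Fintype.sum_prod_type]
      conv_lhs => rw [hdec x]
      refine Finset.sum_congr rfl fun k _ => Finset.sum_congr rfl fun l _ => ?_
      exact (hZm _ (hcor1 _ _ _) (hcor2 _ _ _) k l).symm
  · let Φ : (Fin n × Fin n → Subalgebra.center F A) →ₗ[F] A :=
      { toFun := fun z => ∑ kl, (z kl : A) * (u kl.1 * v kl.2)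
        map_add' := fun z z' => by
          rw [← Finset.sum_add_distrib]
          refine Finset.sum_congr rfl fun kl _ => ?_
          simp [add_mul]
        map_smul' := fun r z => by
          rw [Finset.smul_sum]
          refine Finset.sum_congr rfl fun kl _ => ?_
          simp }
    have hcz : ∀ (z : Subalgebra.center F A) (b : A), b * (z : A) = (z : A) * b :=
      fun z b => Subalgebra.mem_center_iff.mp z.2 b
    have hΦ : Function.Injective Φ := by
      rw [injective_iff_map_eq_zero]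
      intro z hz
      have hz' : ∑ kl, (z kl : A) * (u kl.1 * v kl.2) = 0 := hz
      funext ij
      have h1 : (z ij : A) * ε = 0 := by
        have : v ij.1 * (∑ kl, (z kl : A) * (u kl.1 * v kl.2)) * u ij.2 = (z ij : A) * ε := by
          rw [Finset.mul_sum, Finset.sum_mul, Finset.sum_eq_single ij]
          · have : v ij.1 * ((z ij : A) * (u ij.1 * v ij.2)) * u ij.2
                = (v ij.1 * (z ij : A)) * u ij.1 * (v ij.2 * u ij.2) := by
              simp only [mul_assoc]
            rw [this, hcz, mul_assoc (z ij : A), hvu_same, hvu_same, mul_assoc, idem.eq]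
          · intro kl _ hne
            have : v ij.1 * ((z kl : A) * (u kl.1 * v kl.2)) * u ij.2
                = (v ij.1 * (z kl : A)) * u kl.1 * (v kl.2 * u ij.2) := by
              simp only [mul_assoc]
            rw [this, hcz, mul_assoc (z kl : A)]
            by_cases h1 : ij.1 = kl.1
            · have h2 : kl.2 ≠ ij.2 := by
                intro h2
                exact hne (Prod.ext h1.symm h2)
              rw [hvu_ne _ _ h2, mul_zero]
            · rw [hvu_ne _ _ h1, mul_zero, zero_mul]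
          · intro h; exact absurd (Finset.mem_univ ij) h
        rw [← this, hz']; simp
      have h2 : (z ij : A) = 0 := by
        calc (z ij : A) = (z ij : A) * ∑ k, u k * v k := by rw [hsum, mul_one]
          _ = ∑ k, u k * ((z ij : A) * ε) * v k := by
              rw [Finset.mul_sum]
              refine Finset.sum_congr rfl fun k _ => ?_
              rw [← mul_assoc, ← hcz, ← mul_assoc (u k), hcz (z ij) (u k), ← hcz (z ij) (u k),
                mul_assoc (u k) _ ε, ← hcz (z ij) ε, ← mul_assoc (u k), huε]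
          _ = 0 := by simp [h1]
      exact Subtype.ext h2
    have h := LinearMap.finrank_le_finrank_of_injective hΦ
    rw [Module.finrank_pi_fintype] at h
    simpa [pow_two, mul_comm] using h

end Cfsg.Agent.Lib.Helper58.MatStruct
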