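import Mathlib
import Cfsg.Agent.Lib.Helper37.OrtStmt
import Cfsg.Agent.Lib.Helper37.InvConj
import Cfsg.Agent.Lib.Helper40.PrimeFix
import Cfsg.Agent.Lib.Helper40.SSConj
import Cfsg.Agent.Lib.Helper40.InvDims

/-!
# S5981, piece INV2NS: a matrix `x` with `x * x = z • 1`, `z` a non-square, is a similarity
(with multiplier `z`) of a symmetric form of prescribed discriminant class.

`x = T * (J ⊗ 1) * T⁻¹` with `J = !![0, z; 1, 0]` (as in `Helper37.TenBNSQ`);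
`S' = T⁻ᵀ * blockDiagonal G * T⁻¹` with `G k = !![α, γ; γ, α z]`, `det (G k) = z α² - γ²`
equal to `t` for one `k` and to `1` for the others.
-/

set_option autoImplicit false
set_option linter.style.haveILetI false

namespace Cfsg.Agent.Lib.Helper58.OrtINV2NS

open scoped Kronecker Matrix

universe u

variable {F : Type u} [Field F]

/-- the `2 × 2` block -/
def Gm (z α γ : F) : Matrix (Fin 2) (Fin 2) F := !![α, γ; γ, α * z]

theorem Gm_transpose (z α γ : F) : (Gm z α γ)ᵀ = Gm z α γ := by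
  ext i j
  fin_cases i <;> fin_cases j <;> rfl

theorem Gm_det (z α γ : F) : (Gm z α γ).det = z * α ^ 2 - γ ^ 2 := by
  rw [Gm, Matrix.det_fin_two_of]
  ring

theorem Gm_conj (z α γ : F) :
    (!![0, z; 1, 0] : Matrix (Fin 2) (Fin 2) F)ᵀ * Gm z α γ * !![0, z; 1, 0] = z • Gm z α γ := by
  ext i j
  fin_cases i <;> fin_cases j <;>
    simp [Gm, Matrix.mul_apply, Fin.sum_univ_two] <;> ring

/-- the normal form of `x` (proof as in `Helper37.TenBNSQ.main`) -/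
theorem normal_form [Fintype F] (h2 : ((2 : ℕ) : F) ≠ 0) (n A : ℕ)
    (e : Fin n ≃ Fin 2 × Fin A) (x : Matrix (Fin n) (Fin n) F) (z : F)
    (hz : ∀ d : F, d ^ 2 ≠ z) (hx : x ^ 2 = z • (1 : Matrix (Fin n) (Fin n) F)) :
    ∃ T T' : Matrix (Fin n) (Fin n) F, T * T' = 1 ∧ T' * T = 1 ∧
      x = T * Matrix.reindexAlgEquiv F F e.symm
        ((!![0, z; 1, 0] : Matrix (Fin 2) (Fin 2) F) ⊗ₖ (1 : Matrix (Fin A) (Fin A) F)) * T' := by
  classical
  haveI : Fact (Nat.Prime 2) := ⟨Nat.prime_two⟩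
  have hz0 : z ≠ 0 := by
    rintro rfl
    exact hz 0 (by norm_num)
  obtain ⟨J, hJ⟩ : ∃ J : Matrix (Fin 2) (Fin 2) F, J = !![0, z; 1, 0] := ⟨_, rfl⟩
  have hJJ : J * J = z • (1 : Matrix (Fin 2) (Fin 2) F) := by
    rw [hJ]
    ext i j
    fin_cases i <;> fin_cases j <;> simp [Matrix.mul_apply, Fin.sum_univ_two, Matrix.one_apply]
  obtain ⟨x0, hx0⟩ : ∃ x0 : Matrix (Fin n) (Fin n) F,
      x0 = Matrix.reindexAlgEquiv F F e.symm (J ⊗ₖ (1 : Matrix (Fin A) (Fin A) F)) := ⟨_, rfl⟩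
  have hx0sq : x0 ^ 2 = z • (1 : Matrix (Fin n) (Fin n) F) := by
    rw [hx0, ← map_pow, pow_two, ← Matrix.mul_kronecker_mul, hJJ, mul_one, Matrix.smul_kronecker,
      Matrix.one_kronecker_one, map_smul, map_one]
  obtain ⟨A1, hA1, hcp, -⟩ :=
    Cfsg.Agent.Lib.Helper40.PrimeFix.structure_of_nonpower 2 h2 x z hz hx
  obtain ⟨A0, hA0, hcp0, -⟩ :=
    Cfsg.Agent.Lib.Helper40.PrimeFix.structure_of_nonpower 2 h2 x0 z hz hx0sq
  have hAA : A1 = A0 := by omega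
  have hs := Cfsg.Agent.Lib.Helper40.InvDims.isSemisimple_of_pow_eq_smul x 2 z hz0 h2 hx
  have hs0 := Cfsg.Agent.Lib.Helper40.InvDims.isSemisimple_of_pow_eq_smul x0 2 z hz0 h2 hx0sq
  obtain ⟨ε, hε⟩ := Cfsg.Agent.Lib.Helper40.SSConj.conj_of_charpoly_eq n
    (Matrix.toLin' x) (Matrix.toLin' x0) (Module.finrank_fin_fun F) hs hs0
    (by rw [Matrix.charpoly_toLin', Matrix.charpoly_toLin', hcp, hcp0, hAA])
  obtain ⟨T, hT⟩ : ∃ T : Matrix (Fin n) (Fin n) F,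
      T = LinearMap.toMatrix' (ε.symm : (Fin n → F) →ₗ[F] (Fin n → F)) := ⟨_, rfl⟩
  obtain ⟨T', hT'⟩ : ∃ T' : Matrix (Fin n) (Fin n) F,
      T' = LinearMap.toMatrix' (ε : (Fin n → F) →ₗ[F] (Fin n → F)) := ⟨_, rfl⟩
  have hTT' : T * T' = 1 := by
    rw [hT, hT', ← LinearMap.toMatrix'_comp]
    have : (ε.symm : (Fin n → F) →ₗ[F] (Fin n → F)) ∘ₗ (ε : (Fin n → F) →ₗ[F] (Fin n → F)) =
        LinearMap.id := by
      apply LinearMap.ext
      intro v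
      simp
    rw [this, LinearMap.toMatrix'_id]
  have hT'T : T' * T = 1 := by
    rw [hT, hT', ← LinearMap.toMatrix'_comp]
    have : (ε : (Fin n → F) →ₗ[F] (Fin n → F)) ∘ₗ (ε.symm : (Fin n → F) →ₗ[F] (Fin n → F)) =
        LinearMap.id := by
      apply LinearMap.ext
      intro v
      simp
    rw [this, LinearMap.toMatrix'_id]
  have hxT : x = T * x0 * T' := by
    apply (Matrix.toLin' (R := F) (m := Fin n) (n := Fin n)).injective
    rw [Matrix.toLin'_mul, Matrix.toLin'_mul, hT, hT', Matrix.toLin'_toMatrix',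
      Matrix.toLin'_toMatrix']
    apply LinearMap.ext
    intro v
    rw [LinearMap.comp_apply, LinearMap.comp_apply]
    show Matrix.toLin' x v = ε.symm (Matrix.toLin' x0 (ε v))
    rw [← hε, LinearEquiv.symm_apply_apply]
  refine ⟨T, T', hTT', hT'T, ?_⟩
  rw [hxT, hx0, hJ]

theorem main : Cfsg.Agent.Lib.Helper37.OrtStmt.Inv2NS.{u} := by
  intro F _ _ h2F n hn x z hz hx t ht
  classical
  haveI : Fact (Nat.Prime 2) := ⟨Nat.prime_two⟩
  have h2 : ((2 : ℕ) : F) ≠ 0 := by exact_mod_cast h2F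
  have hz' : ∀ d : F, d ^ 2 ≠ z := fun d => by rw [pow_two]; exact hz d
  have hx' : x ^ 2 = z • (1 : Matrix (Fin n) (Fin n) F) := by rw [pow_two]; exact hx
  have hz0 : z ≠ 0 := by
    rintro rfl
    exact hz 0 (by norm_num)
  obtain ⟨A, hA, -, -⟩ :=
    Cfsg.Agent.Lib.Helper40.PrimeFix.structure_of_nonpower 2 h2 x z hz' hx'
  have hA1 : 0 < A := by omega
  obtain ⟨e⟩ : Nonempty (Fin n ≃ Fin 2 × Fin A) :=
    ⟨(finCongr hA.symm).trans finProdFinEquiv.symm⟩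
  obtain ⟨T, T', hTT', hT'T, hxT⟩ := normal_form h2 n A e x z hz' hx'
  obtain ⟨γ₁, α₁, h1⟩ := Cfsg.Agent.Lib.Helper37.InvConj.exists_norm z (-t) hz0
  obtain ⟨γ₂, α₂, h2'⟩ := Cfsg.Agent.Lib.Helper37.InvConj.exists_norm z (-1) hz0
  obtain ⟨k₀, hk₀⟩ : ∃ k₀ : Fin A, k₀ = ⟨0, hA1⟩ := ⟨_, rfl⟩
  obtain ⟨Gk, hGk⟩ : ∃ Gk : Fin A → Matrix (Fin 2) (Fin 2) F,
      Gk = fun k => if k = k₀ then Gm z α₁ γ₁ else Gm z α₂ γ₂ := ⟨_, rfl⟩
  have hGkT : ∀ k, (Gk k)ᵀ = Gk k := by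
    intro k
    rw [hGk]
    show (if k = k₀ then Gm z α₁ γ₁ else Gm z α₂ γ₂)ᵀ = if k = k₀ then Gm z α₁ γ₁ else Gm z α₂ γ₂
    split_ifs <;> exact Gm_transpose _ _ _
  have hGkJ : ∀ k, (!![0, z; 1, 0] : Matrix (Fin 2) (Fin 2) F)ᵀ * Gk k * !![0, z; 1, 0] =
      z • Gk k := by
    intro k
    rw [hGk]
    show (!![0, z; 1, 0] : Matrix (Fin 2) (Fin 2) F)ᵀ *
      (if k = k₀ then Gm z α₁ γ₁ else Gm z α₂ γ₂) * !![0, z; 1, 0] =
      z • (if k = k₀ then Gm z α₁ γ₁ else Gm z α₂ γ₂)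
    split_ifs <;> exact Gm_conj _ _ _
  have hGkdet : ∀ k, (Gk k).det = if k = k₀ then t else 1 := by
    intro k
    rw [hGk]
    show (if k = k₀ then Gm z α₁ γ₁ else Gm z α₂ γ₂).det = if k = k₀ then t else 1
    split_ifs
    · rw [Gm_det]; linear_combination -h1
    · rw [Gm_det]; linear_combination -h2'
  obtain ⟨M, hM⟩ : ∃ M : Matrix (Fin 2 × Fin A) (Fin 2 × Fin A) F,
      M = Matrix.blockDiagonal Gk := ⟨_, rfl⟩
  have hMT : Mᵀ = M := by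
    rw [hM, Matrix.blockDiagonal_transpose]
    congr 1
    funext k
    exact hGkT k
  have hMdet : M.det = t := by
    rw [hM, Matrix.det_blockDiagonal, Finset.prod_congr rfl (fun k _ => hGkdet k),
      Finset.prod_ite_eq' Finset.univ k₀ (fun _ => t), if_pos (Finset.mem_univ _)]
  have hMJ : ((!![0, z; 1, 0] : Matrix (Fin 2) (Fin 2) F) ⊗ₖ (1 : Matrix (Fin A) (Fin A) F))ᵀ * M *
      ((!![0, z; 1, 0] : Matrix (Fin 2) (Fin 2) F) ⊗ₖ (1 : Matrix (Fin A) (Fin A) F)) = z • M := by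
    rw [Matrix.kronecker_one, hM, Matrix.blockDiagonal_transpose, ← Matrix.blockDiagonal_mul,
      ← Matrix.blockDiagonal_mul, ← Matrix.blockDiagonal_smul]
    congr 1
    funext k
    exact hGkJ k
  obtain ⟨x0, hx0⟩ : ∃ x0 : Matrix (Fin n) (Fin n) F,
      x0 = Matrix.reindexAlgEquiv F F e.symm
        ((!![0, z; 1, 0] : Matrix (Fin 2) (Fin 2) F) ⊗ₖ (1 : Matrix (Fin A) (Fin A) F)) :=
    ⟨_, rfl⟩
  obtain ⟨S₀, hS₀⟩ : ∃ S₀ : Matrix (Fin n) (Fin n) F,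
      S₀ = Matrix.reindexAlgEquiv F F e.symm M := ⟨_, rfl⟩
  have hRT : ∀ N : Matrix (Fin 2 × Fin A) (Fin 2 × Fin A) F,
      (Matrix.reindexAlgEquiv F F e.symm N)ᵀ = Matrix.reindexAlgEquiv F F e.symm Nᵀ := by
    intro N
    rfl
  have hS₀T : S₀ᵀ = S₀ := by rw [hS₀, hRT, hMT]
  have hS₀det : S₀.det = t := by rw [hS₀, Matrix.det_reindexAlgEquiv, hMdet]
  have hx0S : x0ᵀ * S₀ * x0 = z • S₀ := by
    rw [hx0, hS₀, hRT, ← map_mul, ← map_mul, hMJ, map_smul]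
  rw [← hx0] at hxT
  have hdet : T.det * T'.det = 1 := by rw [← Matrix.det_mul, hTT', Matrix.det_one]
  have hμ : T'.det ≠ 0 := right_ne_zero_of_mul_eq_one hdet
  have e1 : Tᵀ * T'ᵀ = 1 := by rw [← Matrix.transpose_mul, hT'T, Matrix.transpose_one]
  refine ⟨T'ᵀ * S₀ * T', T'.det, ?_, hμ, ?_, ?_⟩
  · rw [Matrix.transpose_mul, Matrix.transpose_mul, Matrix.transpose_transpose, hS₀T,
      Matrix.mul_assoc]
  · rw [Matrix.det_mul, Matrix.det_mul, Matrix.det_transpose, hS₀det]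
    ring
  · calc xᵀ * (T'ᵀ * S₀ * T') * x
        = T'ᵀ * (x0ᵀ * ((Tᵀ * T'ᵀ) * S₀ * (T' * T)) * x0) * T' := by
          rw [hxT]
          simp only [Matrix.transpose_mul, Matrix.mul_assoc]
      _ = T'ᵀ * (x0ᵀ * S₀ * x0) * T' := by rw [e1, hT'T, Matrix.one_mul, Matrix.mul_one]
      _ = z • (T'ᵀ * S₀ * T') := by
          rw [hx0S, Matrix.mul_smul, Matrix.smul_mul]

end Cfsg.Agent.Lib.Helper58.OrtINV2NS
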