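import Mathlib
import Cfsg.Agent.Lib.Helper93.S64Stmt
import Cfsg.Agent.Lib.Helper76.PSolv

/-! S1364 piece LE3: `U = ⊥` gives `Ks ≤ M_F` (from `SylNormal`, `GlueA`, `GlueB`). -/

set_option autoImplicit false
universe u

namespace Cfsg.Agent.Lib.Helper58.S64LE3

open Cfsg.Agent.Lib.Helper93.S64Stmt

theorem main (hS : SylNormal.{u}) (hA : GlueA.{u}) (hB : GlueB.{u}) : Le3.{u} := by
  intro G _ _ hG M K U hM hKU hK hU
  have hAs := hA hG M K U hM hKU hK hU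
  have hBs := hB hG M K U hM hKU hK hU
  obtain ⟨hnd, hle⟩ := hS _ _ _ hAs hBs
  have hqp := hBs.qprime
  have : Fact (Nat.card ↥(Cfsg.sigmaCore M ⊓ Subgroup.centralizer (K : Set G))).Prime := ⟨hqp⟩
  have hOn : (Oq ↥M (Cfsg.piCore (Cfsg.sigma M) ↥M)
      (Nat.card ↥(Cfsg.sigmaCore M ⊓ Subgroup.centralizer (K : Set G)))).Normal := inferInstance
  have hOle : Oq ↥M (Cfsg.piCore (Cfsg.sigma M) ↥M)
      (Nat.card ↥(Cfsg.sigmaCore M ⊓ Subgroup.centralizer (K : Set G))) ≤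
      Cfsg.pCore (Nat.card ↥(Cfsg.sigmaCore M ⊓ Subgroup.centralizer (K : Set G))) ↥M := by
    unfold Oq
    exact inf_le_left
  have hOp : IsPGroup (Nat.card ↥(Cfsg.sigmaCore M ⊓ Subgroup.centralizer (K : Set G)))
      ↥(Oq ↥M (Cfsg.piCore (Cfsg.sigma M) ↥M)
        (Nat.card ↥(Cfsg.sigmaCore M ⊓ Subgroup.centralizer (K : Set G)))) :=
    (Cfsg.Agent.Lib.Helper76.PSolv.pCore_isPGroup (G := ↥M)
      (Nat.card ↥(Cfsg.sigmaCore M ⊓ Subgroup.centralizer (K : Set G)))).to_le hOle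
  have hOnil : Group.IsNilpotent ↥(Oq ↥M (Cfsg.piCore (Cfsg.sigma M) ↥M)
      (Nat.card ↥(Cfsg.sigmaCore M ⊓ Subgroup.centralizer (K : Set G)))) := hOp.isNilpotent
  have hOc : (Nat.card ↥(Oq ↥M (Cfsg.piCore (Cfsg.sigma M) ↥M)
      (Nat.card ↥(Cfsg.sigmaCore M ⊓ Subgroup.centralizer (K : Set G))))).Coprime
      (Oq ↥M (Cfsg.piCore (Cfsg.sigma M) ↥M)
        (Nat.card ↥(Cfsg.sigmaCore M ⊓ Subgroup.centralizer (K : Set G)))).index := by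
    obtain ⟨k, hk⟩ := IsPGroup.iff_card.1 hOp
    rw [hk]
    exact Nat.Coprime.pow_left k ((Nat.Prime.coprime_iff_not_dvd hqp).2 hnd)
  have hOF : Oq ↥M (Cfsg.piCore (Cfsg.sigma M) ↥M)
      (Nat.card ↥(Cfsg.sigmaCore M ⊓ Subgroup.centralizer (K : Set G))) ≤ Cfsg.fittingHall ↥M :=
    le_sSup ⟨hOn, hOnil, hOc⟩
  intro x hx
  obtain ⟨hx1, hx2⟩ := Subgroup.mem_inf.1 hx
  obtain ⟨h, hh, rfl⟩ := hx1
  have hc : h ∈ Subgroup.centralizer ((K.subgroupOf M : Subgroup ↥M) : Set ↥M) := by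
    rw [Subgroup.mem_centralizer_iff]
    intro r hr
    apply Subtype.ext
    have hrK : (r : G) ∈ K := Subgroup.mem_subgroupOf.1 hr
    have := Subgroup.mem_centralizer_iff.1 hx2 (r : G) hrK
    simpa using this
  have hO' := hle (Subgroup.mem_inf.2 ⟨hh, hc⟩)
  unfold Cfsg.fittingHallOf
  exact Subgroup.mem_map.2 ⟨h, hOF hO', rfl⟩

end Cfsg.Agent.Lib.Helper58.S64LE3
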