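import Mathlib

/-!
# Transitivity on subgroups of order `p` passes to a quotient by a characteristic `p'`-subgroup
(piece Q2 of S3798)
-/

set_option autoImplicit false

namespace Cfsg.Agent.Lib.Helper58.TransQuot

/-- A subgroup of order `p` of `G ⧸ N`, `N` of order prime to `p`, lifts to a subgroup of order
`p` of `G`. -/
theorem exists_lift {G : Type*} [Group G] [Finite G] {p : ℕ} [Fact p.Prime] (N : Subgroup G)
    [N.Normal] (hN : (Nat.card N).Coprime p) (Ub : Subgroup (G ⧸ N)) (hUb : Nat.card Ub = p) :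
    ∃ U : Subgroup G, Nat.card U = p ∧ U.map (QuotientGroup.mk' N) = Ub := by
  have hp : p.Prime := Fact.out
  have : Nontrivial Ub := Finite.one_lt_card_iff_nontrivial.mp (by rw [hUb]; exact hp.one_lt)
  obtain ⟨x, hx⟩ := exists_ne (1 : Ub)
  have hx1 : (x : G ⧸ N) ≠ 1 := fun h => hx (Subtype.ext h)
  have hxp : (x : G ⧸ N) ^ p = 1 := by
    have h1 : x ^ p = 1 := by
      rw [← hUb]
      exact pow_card_eq_one'
    have h2 := congrArg (Subtype.val) h1
    rw [Subgroup.coe_pow, Subgroup.coe_one] at h2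
    exact h2
  have hord : orderOf (x : G ⧸ N) = p := orderOf_eq_prime hxp hx1
  have hzp : Subgroup.zpowers (x : G ⧸ N) = Ub := by
    apply Subgroup.eq_of_le_of_card_ge
    · rw [Subgroup.zpowers_le]
      exact x.2
    · rw [Nat.card_zpowers, hord, hUb]
  obtain ⟨g, hg⟩ := QuotientGroup.mk'_surjective N (x : G ⧸ N)
  have hgpN : g ^ p ∈ N := by
    rw [← QuotientGroup.eq_one_iff]
    have : ((g ^ p : G) : G ⧸ N) = (QuotientGroup.mk' N g) ^ p := rfl
    rw [this, hg, hxp]
  obtain ⟨j, -, hj⟩ := Nat.exists_mul_mod_eq_one_of_coprime hN hp.one_lt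
  set g' : G := g ^ (Nat.card N * j) with hg'
  have hg'p : g' ^ p = 1 := by
    rw [hg', ← pow_mul, mul_comm, pow_mul, pow_mul]
    have h1 : (⟨g ^ p, hgpN⟩ : N) ^ Nat.card N = 1 := pow_card_eq_one'
    have h2 : (g ^ p) ^ Nat.card N = 1 := by
      have h3 := congrArg (Subtype.val) h1
      rw [Subgroup.coe_pow, Subgroup.coe_one] at h3
      exact h3
    rw [h2, one_pow]
  have hπg' : QuotientGroup.mk' N g' = (x : G ⧸ N) := by
    rw [hg', map_pow, hg, ← pow_mod_orderOf, hord, hj, pow_one]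
  have hg'1 : g' ≠ 1 := by
    intro h
    rw [h, map_one] at hπg'
    exact hx1 hπg'.symm
  refine ⟨Subgroup.zpowers g', ?_, ?_⟩
  · rw [Nat.card_zpowers]
    exact orderOf_eq_prime hg'p hg'1
  · rw [MonoidHom.map_zpowers, hπg', hzp]

/-- [Q2] Transitivity of `Aut G` on the subgroups of order `p` passes to `G ⧸ N` for a
characteristic subgroup `N` of order prime to `p`. -/
theorem trans_quotient {G : Type*} [Group G] [Finite G] {p : ℕ} [Fact p.Prime] (N : Subgroup G)
    [N.Normal] (hNchar : N.Characteristic) (hN : (Nat.card N).Coprime p)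
    (htrans : ∀ U V : Subgroup G, Nat.card U = p → Nat.card V = p →
      ∃ a : MulAut G, U.map a.toMonoidHom = V) :
    ∀ U V : Subgroup (G ⧸ N), Nat.card U = p → Nat.card V = p →
      ∃ a : MulAut (G ⧸ N), U.map a.toMonoidHom = V := by
  intro Ub Vb hUb hVb
  obtain ⟨U, hU, rfl⟩ := exists_lift N hN Ub hUb
  obtain ⟨V, hV, rfl⟩ := exists_lift N hN Vb hVb
  obtain ⟨a, ha⟩ := htrans U V hU hV
  have hNa : N.map a.toMonoidHom = N := Subgroup.characteristic_iff_map_eq.mp hNchar a
  refine ⟨QuotientGroup.congr N N a hNa, ?_⟩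
  rw [Subgroup.map_map, ← ha, Subgroup.map_map]
  congr 1

end Cfsg.Agent.Lib.Helper58.TransQuot
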